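import Mathlib
import Cfsg.Agent.Uni.Simple
import Cfsg.Agent.Uni.Stab

set_option autoImplicit false
set_option linter.unusedSectionVars false
set_option linter.unusedVariables false

/-!
A calculus for operators on `U ⊗ W`, `W = F^b` with the standard Hermitian form.
-/

namespace Cfsg.Agent.UTP

open scoped Matrix
open Cfsg.Agent.Uni
open Matrix (GeneralLinearGroup)

/-- The star ring structure on `F_{q²}`. -/
@[reducible] def starF {F : Type*} [Field F] [Fintype F] {q : ℕ} (hF : Fintype.card F = q ^ 2) : StarRing F where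
  star x := x ^ q
  star_involutive x := pow_q_pow_q hF x
  star_mul x y := by rw [mul_pow, mul_comm]
  star_add x y := add_pow_q hF x y

variable {F : Type*} [Field F] [Fintype F] [StarRing F] {q b : ℕ}

theorem dot_star (hs : ∀ x : F, star x = x ^ q) (w w' : Fin b → F) :
    w ⬝ᵥ star w' = hermForm b F q w w' := by
  simp [dotProduct, hermForm_def, hs]

variable {α : Type*} [Fintype α] [DecidableEq α]

/-- `u ↦ u ⊗ w`. -/
def io (α : Type*) [DecidableEq α] (w : Fin b → F) : Matrix (α × Fin b) α F :=
  Matrix.of fun p i => if p.1 = i then w p.2 else 0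

theorem io_add (w w' : Fin b → F) : io α (w + w') = io α w + io α w' := by
  ext p i
  simp only [io, Matrix.of_apply, Matrix.add_apply, Pi.add_apply]
  split_ifs <;> simp

theorem io_smul (c : F) (w : Fin b → F) : io α (c • w) = c • io α w := by
  ext p i
  simp only [io, Matrix.of_apply, Matrix.smul_apply, Pi.smul_apply, smul_eq_mul]
  split_ifs <;> simp

theorem io_zero : io α (0 : Fin b → F) = 0 := by
  ext p i
  simp [io]

theorem io_neg (w : Fin b → F) : io α (-w) = -io α w := by
  rw [← neg_one_smul F w, io_smul, neg_one_smul]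

theorem io_sub (w w' : Fin b → F) : io α (w - w') = io α w - io α w' := by
  rw [sub_eq_add_neg, io_add, io_neg, sub_eq_add_neg]

theorem io_sum {κ : Type*} (s : Finset κ) (f : κ → Fin b → F) :
    io α (∑ i ∈ s, f i) = ∑ i ∈ s, io α (f i) := by
  classical
  induction s using Finset.induction_on with
  | empty => simp [io_zero]
  | insert a s ha ih => rw [Finset.sum_insert ha, Finset.sum_insert ha, io_add, ih]

theorem ioH_io (hs : ∀ x : F, star x = x ^ q) (w w' : Fin b → F) :
    (io α w')ᴴ * io α w = hermForm b F q w w' • (1 : Matrix α α F) := by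
  ext i j
  rw [Matrix.mul_apply, Fintype.sum_prod_type, Matrix.smul_apply, Matrix.one_apply, smul_eq_mul]
  simp only [io, Matrix.conjTranspose_apply, Matrix.of_apply]
  by_cases hij : i = j
  · subst hij
    rw [if_pos rfl, mul_one, Finset.sum_eq_single i]
    · simp only [if_true]
      rw [hermForm_def]
      exact Finset.sum_congr rfl fun k _ => by rw [hs]; ring
    · intro k _ hk
      simp [hk]
    · intro h; exact absurd (Finset.mem_univ _) h
  · rw [if_neg hij, mul_zero]
    apply Finset.sum_eq_zero
    intro k _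
    by_cases hk : k = i
    · subst hk
      simp [hij]
    · simp [hk]

/-- `A ⊗ (w ⊗ w'^*)`. -/
def tt (w : Fin b → F) (A : Matrix α α F) (w' : Fin b → F) : Matrix (α × Fin b) (α × Fin b) F :=
  io α w * A * (io α w')ᴴ

theorem tt_mul (hs : ∀ x : F, star x = x ^ q) (w w' z z' : Fin b → F) (A B : Matrix α α F) :
    tt w A w' * tt z B z' = hermForm b F q z w' • tt w (A * B) z' := by
  unfold tt
  calc io α w * A * (io α w')ᴴ * (io α z * B * (io α z')ᴴ) =
      io α w * A * ((io α w')ᴴ * io α z) * B * (io α z')ᴴ := by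
        simp only [Matrix.mul_assoc]
    _ = _ := by
        rw [ioH_io hs, Matrix.mul_smul, Matrix.mul_one, Matrix.smul_mul, Matrix.smul_mul,
          Matrix.mul_assoc (io α w) A B]

theorem tt_mul_io (hs : ∀ x : F, star x = x ^ q) (w w' z : Fin b → F) (A : Matrix α α F) :
    tt w A w' * io α z = hermForm b F q z w' • (io α w * A) := by
  unfold tt
  rw [Matrix.mul_assoc, ioH_io hs, Matrix.mul_smul, Matrix.mul_one]

theorem tt_conj (w w' : Fin b → F) (A : Matrix α α F) : (tt w A w')ᴴ = tt w' Aᴴ w := by
  unfold tt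
  rw [Matrix.conjTranspose_mul, Matrix.conjTranspose_mul, Matrix.conjTranspose_conjTranspose,
    ← Matrix.mul_assoc]

theorem tt_add_left (w z w' : Fin b → F) (A : Matrix α α F) : tt (w + z) A w' = tt w A w' + tt z A w' := by
  unfold tt
  rw [io_add, Matrix.add_mul, Matrix.add_mul]

theorem tt_add_right (w z w' : Fin b → F) (A : Matrix α α F) : tt w A (z + w') = tt w A z + tt w A w' := by
  unfold tt
  rw [io_add, Matrix.conjTranspose_add, Matrix.mul_add]

theorem tt_add_mid (w w' : Fin b → F) (A B : Matrix α α F) : tt w (A + B) w' = tt w A w' + tt w B w' := by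
  unfold tt
  rw [Matrix.mul_add, Matrix.add_mul]

theorem tt_sub_mid (w w' : Fin b → F) (A B : Matrix α α F) : tt w (A - B) w' = tt w A w' - tt w B w' := by
  unfold tt
  rw [Matrix.mul_sub, Matrix.sub_mul]

theorem tt_neg_mid (w w' : Fin b → F) (A : Matrix α α F) : tt w (-A) w' = -tt w A w' := by
  unfold tt
  rw [Matrix.mul_neg, Matrix.neg_mul]

theorem tt_zero_mid (w w' : Fin b → F) : tt w (0 : Matrix α α F) w' = 0 := by
  unfold tt
  rw [Matrix.mul_zero, Matrix.zero_mul]

theorem tt_smul_left (c : F) (w w' : Fin b → F) (A : Matrix α α F) : tt (c • w) A w' = c • tt w A w' := by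
  unfold tt
  rw [io_smul, Matrix.smul_mul, Matrix.smul_mul]

theorem tt_smul_mid (c : F) (w w' : Fin b → F) (A : Matrix α α F) : tt w (c • A) w' = c • tt w A w' := by
  unfold tt
  rw [Matrix.mul_smul, Matrix.smul_mul]

theorem tt_smul_right (hs : ∀ x : F, star x = x ^ q) (c : F) (w w' : Fin b → F) (A : Matrix α α F) :
    tt w A (c • w') = c ^ q • tt w A w' := by
  unfold tt
  rw [io_smul, Matrix.conjTranspose_smul, Matrix.mul_smul, hs]

theorem tt_zero_left (w' : Fin b → F) (A : Matrix α α F) : tt 0 A w' = 0 := by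
  unfold tt
  rw [io_zero, Matrix.zero_mul, Matrix.zero_mul]

/-- Left cancellation. -/
theorem io_mul_inj {κ : Type*} {w : Fin b → F} (hw : w ≠ 0) {A B : Matrix α κ F}
    (h : io α w * A = io α w * B) : A = B := by
  obtain ⟨j, hj⟩ : ∃ j, w j ≠ 0 := by
    by_contra hcon
    push Not at hcon
    exact hw (funext hcon)
  have key : ∀ (A : Matrix α κ F) (i : α) (k : κ), (io α w * A) (i, j) k = w j * A i k := by
    intro A i k
    rw [Matrix.mul_apply, Finset.sum_eq_single i]
    · simp [io]
    · intro l _ hl
      simp [io, Ne.symm hl]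
    · intro h; exact absurd (Finset.mem_univ _) h
  ext i k
  have h1 := congrFun (congrFun h (i, j)) k
  rw [key, key] at h1
  exact mul_left_cancel₀ hj h1

theorem tt_inj {w w' : Fin b → F} (hw : w ≠ 0) (hw' : w' ≠ 0) {A B : Matrix α α F}
    (h : tt w A w' = tt w B w') : A = B := by
  unfold tt at h
  have h1 := congrArg Matrix.conjTranspose h
  rw [Matrix.conjTranspose_mul, Matrix.conjTranspose_mul, Matrix.conjTranspose_conjTranspose,
    Matrix.conjTranspose_mul, Matrix.conjTranspose_mul, Matrix.conjTranspose_conjTranspose,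
    ← Matrix.conjTranspose_mul, ← Matrix.conjTranspose_mul] at h1
  have h2 := io_mul_inj hw' h1
  have h3 := congrArg Matrix.conjTranspose h2
  rw [Matrix.conjTranspose_conjTranspose, Matrix.conjTranspose_conjTranspose] at h3
  exact io_mul_inj hw h3

end Cfsg.Agent.UTP
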