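import Mathlib
import Cfsg.Agent.Uni.Simple
import Cfsg.Agent.Uni.Stab

set_option autoImplicit false
set_option linter.unusedSectionVars false
set_option linter.unusedVariables false

/-!
Geometry of the standard Hermitian space.
-/

namespace Cfsg.Agent.UTP

open scoped Matrix
open Cfsg.Agent.Uni Module
open Matrix (GeneralLinearGroup)

variable {F : Type*} [Field F] [Fintype F] {q n : ℕ}

theorem nd_exists_hyp_pair (hF : Fintype.card F = q ^ 2) {W : Submodule F (Fin n → F)}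
    (h : ND q W) (h2 : 2 ≤ finrank F W) : ∃ u ∈ W, ∃ v ∈ W, Hyp q u v := by
  obtain ⟨u, hu, hu0, huu⟩ := h.exists_isotropic hF h2
  have : ∃ x ∈ W, hermForm n F q u x ≠ 0 := by
    by_contra hcon
    push Not at hcon
    exact hu0 (h u hu hcon)
  obtain ⟨x, hx, hux⟩ := this
  obtain ⟨c, d, _, h1, h2⟩ := exists_hyp hF huu hux
  exact ⟨u, hu, _, W.add_mem (W.smul_mem _ hx) (W.smul_mem _ hu), huu, h1, h2⟩

/-- An element of norm one different from one. -/
theorem exists_norm_one_ne (hF : Fintype.card F = q ^ 2) : ∃ z : F, z ^ (q + 1) = 1 ∧ z ≠ 1 := by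
  obtain ⟨x, hx⟩ := exists_pow_q_ne (F := F) hF
  have hx0 : x ≠ 0 := by
    rintro rfl
    exact hx (zero_pow_q hF)
  refine ⟨x ^ q / x, ?_, ?_⟩
  · rw [div_pow, pow_succ, pow_q_pow_q hF, pow_succ, mul_comm]
    exact div_self (mul_ne_zero (pow_ne_zero _ hx0) hx0)
  · intro h
    rw [div_eq_one_iff_eq hx0] at h
    exact hx h

/-- A nondegenerate space of dimension at least two is spanned by its isotropic vectors. -/
theorem nd_le_of_isotropic (hF : Fintype.card F = q ^ 2) {W : Submodule F (Fin n → F)}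
    (h : ND q W) (h2 : 2 ≤ finrank F W) {S : Submodule F (Fin n → F)}
    (hS : ∀ x ∈ W, hermForm n F q x x = 0 → x ∈ S) : W ≤ S := by
  intro y hy
  by_cases hyy : hermForm n F q y y = 0
  · exact hS y hy hyy
  have hnd := nd_span_unit hyy
  have hle : Submodule.span F {y} ≤ W := by
    rw [Submodule.span_singleton_le_iff_mem]; exact hy
  have h3 := finrank_inf_perp hF hnd hle
  have hyne : y ≠ 0 := by
    rintro rfl
    rw [hermForm_zero_left] at hyy
    exact hyy rfl
  rw [finrank_span_singleton hyne] at h3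
  obtain ⟨z, hz, hzz⟩ := (h.inf_perp hF hnd hle).exists_unit hF (by
    intro hbot
    rw [hbot, finrank_bot] at h3
    omega)
  have hzy : hermForm n F q z y = 0 := hz.2 y (Submodule.mem_span_singleton_self y)
  have hyz := (hermForm_eq_zero_comm hF).1 hzy
  obtain ⟨a, ha⟩ := exists_norm_eq hF (c := -hermForm n F q y y) (by
    rw [neg_pow_q hF, hermForm_self_pow_q hF])
  obtain ⟨ζ, hζ, hζ1⟩ := exists_norm_one_ne hF
  have key : ∀ c : F, c ^ (q + 1) = -hermForm n F q y y → y + c • z ∈ S := by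
    intro c hc
    apply hS _ (W.add_mem hy (W.smul_mem _ hz.1))
    rw [hermForm_add_left, hermForm_add_right hF, hermForm_add_right hF, hermForm_smul_left,
      hermForm_smul_left, hermForm_smul_right, hermForm_smul_right, hzz, hyz, hzy]
    rw [pow_succ] at hc
    linear_combination hc
  have k1 := key a ha
  have k2 := key (ζ * a) (by rw [mul_pow, hζ, one_mul, ha])
  have : y = (ζ - 1)⁻¹ • (ζ • (y + a • z) - (y + (ζ * a) • z)) := by
    have e : ζ • (y + a • z) - (y + (ζ * a) • z) = (ζ - 1) • y := by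
      module
    rw [e, smul_smul, inv_mul_cancel₀ (sub_ne_zero.2 hζ1), one_smul]
  rw [this]
  exact S.smul_mem _ (S.sub_mem (S.smul_mem _ k1) k2)

theorem top_le_of_isotropic (hF : Fintype.card F = q ^ 2) (hn : 2 ≤ n) {S : Submodule F (Fin n → F)}
    (hS : ∀ x, hermForm n F q x x = 0 → x ∈ S) (y : Fin n → F) : y ∈ S :=
  nd_le_of_isotropic hF (nd_top (n := n) hF) (by
    rw [finrank_top, Module.finrank_fin_fun]; exact hn) (fun x _ hx => hS x hx) Submodule.mem_top

/-- The perp of an isotropic vector is spanned by isotropic vectors in dimension at least four. -/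
theorem perp_le_of_isotropic (hF : Fintype.card F = q ^ 2) (hn : 4 ≤ n) {w : Fin n → F}
    (hw0 : w ≠ 0) (hw : hermForm n F q w w = 0) {S : Submodule F (Fin n → F)}
    (hS : ∀ x, hermForm n F q x x = 0 → hermForm n F q x w = 0 → x ∈ S) (y : Fin n → F)
    (hy : hermForm n F q y w = 0) : y ∈ S := by
  obtain ⟨v, hv⟩ := exists_hyp' hF hw0 hw
  have hnd := (hv.nd hF).perp hF
  have hle : perp q (Submodule.span F {w, v}) ≤ S := by
    apply nd_le_of_isotropic hF hnd
    · rw [hv.finrank_perp hF]; omega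
    · intro x hx hxx
      exact hS x hxx ((Hyp.mem_perp_iff hF).1 hx).1
  obtain ⟨a, ha, c, hc, rfl⟩ := (hv.nd hF).exists_add hF y
  apply S.add_mem _ (hle hc)
  obtain ⟨s, t, rfl⟩ := Submodule.mem_span_pair.1 ha
  have hcw := ((Hyp.mem_perp_iff hF).1 hc).1
  rw [hermForm_add_left, hcw, add_zero, hermForm_add_left, hermForm_smul_left, hermForm_smul_left,
    hw, (hv.symm hF).2.2, mul_zero, zero_add, mul_one] at hy
  rw [hy, zero_smul, add_zero]
  exact S.smul_mem _ (hS w hw hw)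

theorem exists_hyp_perp (hF : Fintype.card F = q ^ 2) (hn : 4 ≤ n) {w : Fin n → F}
    (hw : hermForm n F q w w = 0) : ∃ u v, Hyp q u v ∧ hermForm n F q u w = 0 ∧
      hermForm n F q v w = 0 := by
  by_cases hw0 : w = 0
  · subst hw0
    obtain ⟨u, -, v, -, h⟩ := nd_exists_hyp_pair hF (nd_top (n := n) hF) (by
      rw [finrank_top, Module.finrank_fin_fun]; omega)
    exact ⟨u, v, h, hermForm_zero_right hF _, hermForm_zero_right hF _⟩
  · obtain ⟨x, hx⟩ := exists_hyp' hF hw0 hw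
    obtain ⟨u, hu, v, hv, h⟩ := nd_exists_hyp_pair hF ((hx.nd hF).perp hF) (by
      rw [hx.finrank_perp hF]; omega)
    exact ⟨u, v, h, ((Hyp.mem_perp_iff hF).1 hu).1, ((Hyp.mem_perp_iff hF).1 hv).1⟩

theorem exists_iso_perp_hyp (hF : Fintype.card F = q ^ 2) (hn : 4 ≤ n) {u v : Fin n → F}
    (h : Hyp q u v) : ∃ z, z ≠ 0 ∧ hermForm n F q z z = 0 ∧ hermForm n F q z u = 0 ∧
      hermForm n F q z v = 0 := by
  obtain ⟨z, hz, hz0, hzz⟩ := ((h.nd hF).perp hF).exists_isotropic hF (by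
      rw [h.finrank_perp hF]; omega)
  exact ⟨z, hz0, hzz, (Hyp.mem_perp_iff hF).1 hz⟩

/-- Elements of `SU` from elements of `GU`. -/
theorem exists_SU_of_GU (hF : Fintype.card F = q ^ 2) (g : GU n F q)
    (hg : ((detHom hF n g : Fˣ) : F) = 1) : ∃ s : SU n F q, ∀ x, act s x = gact g x := by
  refine ⟨mkSU ((g : GL (Fin n) F) : Matrix (Fin n) (Fin n) F) (GU_pres g) ?_, fun x => ?_⟩
  · rw [← detHom_coe hF]; exact hg
  · rw [act_def, mkSU_coe]; rfl

/-- Transitivity on nonzero isotropic vectors. -/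
theorem exists_SU_isotropic (hF : Fintype.card F = q ^ 2) (hn : 3 ≤ n) {u u' : Fin n → F}
    (hu0 : u ≠ 0) (hu'0 : u' ≠ 0) (hu : hermForm n F q u u = 0)
    (hu' : hermForm n F q u' u' = 0) : ∃ g : SU n F q, act g u = u' := by
  obtain ⟨t, -, c, hc, htc⟩ := exists_TT_isotropic hF hu0 hu'0 hu hu'
  obtain ⟨v, hv⟩ := exists_hyp' hF hu'0 hu'
  obtain ⟨z, hz, hzz⟩ := ((hv.nd hF).perp hF).exists_unit hF (by
    intro hbot
    have := hv.finrank_perp hF
    rw [hbot, finrank_bot] at this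
    omega)
  obtain ⟨hzu, hzv⟩ := (Hyp.mem_perp_iff hF).1 hz
  have hc' : c⁻¹ ≠ 0 := inv_ne_zero hc
  have hcq : (c⁻¹) ^ q ≠ 0 := pow_ne_zero _ hc'
  obtain ⟨g, hg, hgd⟩ := exists_gtorus hF hv hc'
  obtain ⟨r, hr, hrd⟩ := exists_grefl hF hzz (a := (c⁻¹) ^ q * (c⁻¹)⁻¹) (by
    have h1 : ((c⁻¹) ^ q) ^ (q + 1) = (c⁻¹) ^ (q + 1) := by
      rw [pow_succ, pow_q_pow_q hF, pow_succ, mul_comm]
    rw [mul_pow, h1, inv_pow (c⁻¹)]
    exact mul_inv_cancel₀ (pow_ne_zero _ hc'))
  have hdet : ((detHom hF n (r * g) : Fˣ) : F) = 1 := by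
    rw [map_mul]
    change ((detHom hF n r : Fˣ) : F) * ((detHom hF n g : Fˣ) : F) = 1
    rw [hgd, hrd]
    field_simp
  obtain ⟨s, hs⟩ := exists_SU_of_GU hF (r * g) hdet
  refine ⟨s * t, ?_⟩
  have huz : hermForm n F q u' z = 0 := (hermForm_eq_zero_comm hF).1 hzu
  rw [act_mul, htc, hs, gact_mul, gact_smul, hg, hv.2.2, hu', mul_one, mul_zero, zero_smul, add_zero,
    gact_smul]
  have e : u' + (c⁻¹ - 1) • u' = c⁻¹ • u' := by module
  rw [e, gact_smul, hr, huz, mul_zero, zero_smul, add_zero, smul_smul, mul_inv_cancel₀ hc, one_smul]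

end Cfsg.Agent.UTP
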