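import Mathlib
import Cfsg.Agent.UTP.Calc
import Cfsg.Agent.UTP.Geo

set_option autoImplicit false
set_option linter.unusedSectionVars false
set_option linter.unusedVariables false

/-!
Subalgebras of the matrix algebra closed under adjoints and normalised by `SU`.
-/

namespace Cfsg.Agent.UTP

open scoped Matrix
open Cfsg.Agent.Uni Module
open Matrix (GeneralLinearGroup)

variable {F : Type*} [Field F] [Fintype F] [StarRing F] {q a : ℕ}

/-- Matrix units. -/
def ee (q : ℕ) (u v : Fin a → F) : Matrix (Fin a) (Fin a) F := Matrix.of fun i j => u i * (v j) ^ q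

theorem ee_mulVec (u v x : Fin a → F) : ee q u v *ᵥ x = hermForm a F q x v • u := by
  funext i
  rw [Matrix.mulVec, dotProduct, Pi.smul_apply, smul_eq_mul, hermForm_def, Finset.sum_mul]
  refine Finset.sum_congr rfl fun j _ => ?_
  simp only [ee, Matrix.of_apply]
  ring

theorem mul_ee (A : Matrix (Fin a) (Fin a) F) (u v : Fin a → F) : A * ee q u v = ee q (A *ᵥ u) v := by
  ext i j
  simp only [ee, Matrix.mul_apply, Matrix.of_apply, Matrix.mulVec, dotProduct]
  rw [Finset.sum_mul]
  exact Finset.sum_congr rfl fun k _ => by ring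

theorem ee_add_left (u u' v : Fin a → F) : ee q (u + u') v = ee q u v + ee q u' v := by
  ext i j
  simp only [ee, Matrix.of_apply, Matrix.add_apply, Pi.add_apply]
  ring

theorem ee_smul_left (c : F) (u v : Fin a → F) : ee q (c • u) v = c • ee q u v := by
  ext i j
  simp only [ee, Matrix.of_apply, Matrix.smul_apply, Pi.smul_apply, smul_eq_mul]
  ring

theorem ee_smul_right (c : F) (u v : Fin a → F) : ee q u (c • v) = c ^ q • ee q u v := by
  ext i j
  simp only [ee, Matrix.of_apply, Matrix.smul_apply, Pi.smul_apply, smul_eq_mul, mul_pow]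
  ring

theorem ee_zero_left (v : Fin a → F) : ee q 0 v = 0 := by
  ext i j
  simp [ee]

variable (hF : Fintype.card F = q ^ 2) (hs : ∀ x : F, star x = x ^ q)

section
include hF
theorem ee_add_right (u v v' : Fin a → F) : ee q u (v + v') = ee q u v + ee q u v' := by
  ext i j
  simp only [ee, Matrix.of_apply, Matrix.add_apply, Pi.add_apply, add_pow_q hF]
  ring

theorem ee_zero_right (u : Fin a → F) : ee q u 0 = 0 := by
  ext i j
  simp [ee, zero_pow_q hF]
end

theorem ee_mul (u v x y : Fin a → F) :
    ee q u v * ee q x y = hermForm a F q x v • ee q u y := by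
  rw [mul_ee, ee_mulVec, ee_smul_left]

include hs in
theorem ee_conjT (hF : Fintype.card F = q ^ 2) (u v : Fin a → F) : (ee q u v)ᴴ = ee q v u := by
  ext i j
  simp only [ee, Matrix.conjTranspose_apply, Matrix.of_apply, hs, mul_pow, pow_q_pow_q hF]
  ring

include hs in
theorem adj_form (hF : Fintype.card F = q ^ 2) (A : Matrix (Fin a) (Fin a) F) (x y : Fin a → F) :
    hermForm a F q (A *ᵥ x) y = hermForm a F q x (Aᴴ *ᵥ y) := by
  rw [hermForm_def, hermForm_def]
  simp only [Matrix.mulVec, dotProduct, Matrix.conjTranspose_apply, hs]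
  have e : ∀ i, (∑ j, (A j i) ^ q * y j) ^ q = ∑ j, A j i * (y j) ^ q := by
    intro i
    rw [sum_pow_q hF]
    exact Finset.sum_congr rfl fun j _ => by rw [mul_pow, pow_q_pow_q hF]
  simp only [e, Finset.sum_mul, Finset.mul_sum]
  rw [Finset.sum_comm]
  exact Finset.sum_congr rfl fun i _ => Finset.sum_congr rfl fun j _ => by ring

include hs in
theorem ee_mul_right (hF : Fintype.card F = q ^ 2) (A : Matrix (Fin a) (Fin a) F) (u v : Fin a → F) :
    ee q u v * A = ee q u (Aᴴ *ᵥ v) := by
  have h1 : (ee q u v * A)ᴴ = (ee q u (Aᴴ *ᵥ v))ᴴ := by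
    rw [Matrix.conjTranspose_mul, ee_conjT hs hF, ee_conjT hs hF, mul_ee]
  have h2 := congrArg Matrix.conjTranspose h1
  rwa [Matrix.conjTranspose_conjTranspose, Matrix.conjTranspose_conjTranspose] at h2

/-- The closure conditions. -/
structure SAlg (q : ℕ) (B : Set (Matrix (Fin a) (Fin a) F)) : Prop where
  one : (1 : Matrix (Fin a) (Fin a) F) ∈ B
  add : ∀ x ∈ B, ∀ y ∈ B, x + y ∈ B
  mul : ∀ x ∈ B, ∀ y ∈ B, x * y ∈ B
  smul : ∀ (c : F), ∀ x ∈ B, c • x ∈ B
  conjT : ∀ x ∈ B, xᴴ ∈ B
  inv : ∀ (s : SU a F q), ∀ x ∈ B, ((s : Matrix.SpecialLinearGroup (Fin a) F) : Matrix (Fin a) (Fin a) F) *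
    x * ((s : Matrix.SpecialLinearGroup (Fin a) F) : Matrix (Fin a) (Fin a) F)ᴴ ∈ B

variable {B : Set (Matrix (Fin a) (Fin a) F)}

theorem SAlg.sub (h : SAlg q B) {x y : Matrix (Fin a) (Fin a) F} (hx : x ∈ B) (hy : y ∈ B) :
    x - y ∈ B := by
  have := h.add x hx _ (h.smul (-1) y hy)
  rwa [neg_one_smul, ← sub_eq_add_neg] at this

theorem SAlg.of_smul (h : SAlg q B) {c : F} (hc : c ≠ 0) {x : Matrix (Fin a) (Fin a) F}
    (hx : c • x ∈ B) : x ∈ B := by
  have := h.smul c⁻¹ _ hx
  rwa [smul_smul, inv_mul_cancel₀ hc, one_smul] at this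

include hs

theorem SAlg.conj_ee (h : SAlg q B) (hF : Fintype.card F = q ^ 2) (s : SU a F q)
    {u v : Fin a → F} (hu : ee q u v ∈ B) : ee q (act s u) (act s v) ∈ B := by
  have := h.inv s _ hu
  rw [mul_ee, ee_mul_right hs hF, Matrix.conjTranspose_conjTranspose] at this
  exact this

theorem SU_conjT_mul (hF : Fintype.card F = q ^ 2) (s : SU a F q) :
    ((s : Matrix.SpecialLinearGroup (Fin a) F) : Matrix (Fin a) (Fin a) F)ᴴ *
      ((s : Matrix.SpecialLinearGroup (Fin a) F) : Matrix (Fin a) (Fin a) F) = 1 := by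
  have h1 : ∀ x y : Fin a → F, hermForm a F q x ((((s : Matrix.SpecialLinearGroup (Fin a) F) :
      Matrix (Fin a) (Fin a) F)ᴴ * ((s : Matrix.SpecialLinearGroup (Fin a) F) :
      Matrix (Fin a) (Fin a) F)) *ᵥ y - y) = 0 := by
    intro x y
    rw [hermForm_sub_right hF, ← Matrix.mulVec_mulVec, ← adj_form hs hF]
    rw [sub_eq_zero]
    exact SU_pres s x y
  ext i j
  have h2 := hermForm_nondeg' hF (fun x => h1 x (Pi.single j 1))
  have h3 := congrFun (sub_eq_zero.1 h2) i
  rw [Matrix.mulVec_single_one] at h3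
  rw [Matrix.one_apply]
  have h4 : ((((s : Matrix.SpecialLinearGroup (Fin a) F) :
      Matrix (Fin a) (Fin a) F)ᴴ * ((s : Matrix.SpecialLinearGroup (Fin a) F) :
      Matrix (Fin a) (Fin a) F))) i j = (Pi.single j (1 : F) : Fin a → F) i := h3
  rw [h4, Pi.single_apply]

/-- The adjoint is the inverse. -/
theorem SU_conjT_mulVec (hF : Fintype.card F = q ^ 2) (s : SU a F q) (x : Fin a → F) :
    ((s : Matrix.SpecialLinearGroup (Fin a) F) : Matrix (Fin a) (Fin a) F)ᴴ *ᵥ (act s x) = x := by
  rw [act_def, Matrix.mulVec_mulVec, SU_conjT_mul hs hF, Matrix.one_mulVec]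

/-- Hyperbolic pairs. -/
theorem SAlg.hyp (h : SAlg q B) (hF : Fintype.card F = q ^ 2) {u v : Fin a → F} (huv : Hyp q u v)
    (hu : ee q u u ∈ B) : ee q u v ∈ B ∧ ee q v u ∈ B ∧ ee q v v ∈ B := by
  obtain ⟨c, hc0, hc⟩ := exists_skew hF
  obtain ⟨s, -, hsx⟩ := exists_transv hF huv.2.1 hc
  have hvu := (huv.symm hF).2.2
  have h1 := h.conj_ee hs hF s hu
  have e : act s u = u + c • v := by rw [hsx, huv.2.2, mul_one]
  rw [e] at h1
  have h2 : ee q (u + c • v) (u + c • v) - ee q u u = c • ee q v u - c • ee q u v -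
      (c * c) • ee q v v := by
    rw [ee_add_right hF, ee_add_left, ee_add_left, ee_smul_right, ee_smul_right, ee_smul_left,
      ee_smul_left, hc]
    module
  have h3 := h.sub h1 hu
  rw [h2] at h3
  have h4 := h.mul _ hu _ h3
  have h5 : ee q u u * (c • ee q v u - c • ee q u v - (c * c) • ee q v v) =
      c • ee q u u - (c * c) • ee q u v := by
    rw [Matrix.mul_sub, Matrix.mul_sub, Matrix.mul_smul, Matrix.mul_smul, Matrix.mul_smul, ee_mul,
      ee_mul, ee_mul, huv.1, hvu, one_smul, one_smul, zero_smul, smul_zero, sub_zero]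
  rw [h5] at h4
  have h6 : ee q u v ∈ B := by
    apply h.of_smul (mul_ne_zero hc0 hc0)
    have := h.sub (h.smul c _ hu) h4
    convert this using 1
    module
  have h7 : ee q v u ∈ B := by
    have := h.conjT _ h6
    rwa [ee_conjT hs hF] at this
  refine ⟨h6, h7, ?_⟩
  apply h.of_smul (mul_ne_zero hc0 hc0)
  have := h.sub (h.sub (h.smul c _ h7) (h.smul c _ h6)) h3
  convert this using 1
  module

theorem SAlg.nonorth (h : SAlg q B) (hF : Fintype.card F = q ^ 2) {u v : Fin a → F}
    (huu : hermForm a F q u u = 0) (hvv : hermForm a F q v v = 0) (huv : hermForm a F q u v ≠ 0)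
    (hu : ee q u u ∈ B) : ee q u v ∈ B ∧ ee q v u ∈ B ∧ ee q v v ∈ B := by
  set c : F := ((hermForm a F q u v)⁻¹) ^ q with hc
  have hcq : c ^ q = (hermForm a F q u v)⁻¹ := by rw [hc, pow_q_pow_q hF]
  have hc0 : c ≠ 0 := pow_ne_zero _ (inv_ne_zero huv)
  have hH : Hyp q u (c • v) := by
    refine ⟨huu, ?_, ?_⟩
    · rw [hermForm_smul_left, hermForm_smul_right, hvv]; ring
    · rw [hermForm_smul_right, hcq, inv_mul_cancel₀ huv]
  obtain ⟨h1, h2, h3⟩ := h.hyp hs hF hH hu
  rw [ee_smul_right] at h1
  rw [ee_smul_left] at h2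
  rw [ee_smul_right, ee_smul_left] at h3
  exact ⟨h.of_smul (pow_ne_zero _ hc0) h1, h.of_smul hc0 h2,
    h.of_smul hc0 (h.of_smul (pow_ne_zero _ hc0) h3)⟩

theorem SAlg.of_all (h : SAlg q B) (hF : Fintype.card F = q ^ 2)
    (hall : ∀ x y : Fin a → F, ee q x y ∈ B) (A : Matrix (Fin a) (Fin a) F) : A ∈ B := by
  have h1 : A = ∑ j : Fin a, ee q (A *ᵥ (Pi.single j 1)) (Pi.single j 1) := by
    ext i k
    rw [Matrix.sum_apply, Finset.sum_eq_single k]
    · simp [ee]
    · intro j _ hj
      simp only [ee, Matrix.of_apply]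
      rw [Pi.single_eq_of_ne (Ne.symm hj), zero_pow_q hF, mul_zero]
    · intro h; exact absurd (Finset.mem_univ _) h
  rw [h1]
  have : ∀ s : Finset (Fin a), ∑ j ∈ s, ee q (A *ᵥ (Pi.single j 1)) (Pi.single j 1) ∈ B := by
    intro s
    classical
    induction s using Finset.induction_on with
    | empty =>
      rw [Finset.sum_empty]
      have := h.smul 0 _ h.one
      rwa [zero_smul] at this
    | insert j s hj ih =>
      rw [Finset.sum_insert hj]
      exact h.add _ (hall _ _) _ ih
  exact this _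

/-- One matrix unit attached to an isotropic vector generates everything. -/
theorem SAlg.top_of_iso (h : SAlg q B) (hF : Fintype.card F = q ^ 2) (ha : 2 ≤ a)
    {u : Fin a → F} (hu0 : u ≠ 0) (huu : hermForm a F q u u = 0) (hu : ee q u u ∈ B)
    (A : Matrix (Fin a) (Fin a) F) : A ∈ B := by
  -- all isotropic vectors
  have h1 : ∀ x, hermForm a F q x x = 0 → ee q x x ∈ B := by
    intro x hx
    by_cases hx0 : x = 0
    · rw [hx0, ee_zero_left]
      have := h.smul 0 _ h.one
      rwa [zero_smul] at this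
    obtain ⟨z, hzz, huz, hxz⟩ := exists_isotropic_form_ne_two hF ha hu0 hx0
    have h2 := (h.nonorth hs hF huu hzz huz hu).2.2
    have hzx : hermForm a F q z x ≠ 0 := fun h => hxz ((hermForm_eq_zero_comm hF).1 h)
    exact (h.nonorth hs hF hzz hx hzx h2).2.2
  -- all pairs
  have h2 : ∀ x, hermForm a F q x x = 0 → x ≠ 0 → ∀ y, ee q x y ∈ B := by
    intro x hx hx0
    let S : Submodule F (Fin a → F) :=
      { carrier := {y | ee q x y ∈ B}
        zero_mem' := by
          change ee q x 0 ∈ B
          rw [ee_zero_right hF]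
          have := h.smul 0 _ h.one
          rwa [zero_smul] at this
        add_mem' := by
          intro y z hy hz
          change ee q x (y + z) ∈ B
          rw [ee_add_right hF]
          exact h.add _ hy _ hz
        smul_mem' := by
          intro c y hy
          change ee q x (c • y) ∈ B
          rw [ee_smul_right]
          exact h.smul _ _ hy }
    have hS : ∀ y, y ∈ S ↔ ee q x y ∈ B := fun y => Iff.rfl
    intro y
    rw [← hS]
    apply top_le_of_isotropic hF ha
    intro y hy
    have hno : ∀ z, hermForm a F q z z = 0 → hermForm a F q x z ≠ 0 → z ∈ S := by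
      intro z hz hxz
      exact (h.nonorth hs hF hx hz hxz (h1 x hx)).1
    by_cases hxy : hermForm a F q x y = 0
    · obtain ⟨v, hv⟩ := exists_hyp' hF hx0 hx
      obtain ⟨l, hl0, hl⟩ : ∃ l : F, l ≠ 0 ∧ l * hermForm a F q v y + (l * hermForm a F q v y) ^ q = 0 := by
        by_cases hb : hermForm a F q v y = 0
        · exact ⟨1, one_ne_zero, by rw [hb, mul_zero, zero_pow_q hF, add_zero]⟩
        · obtain ⟨e, he0, he⟩ := exists_skew hF
          refine ⟨e / hermForm a F q v y, div_ne_zero he0 hb, ?_⟩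
          rw [div_mul_cancel₀ _ hb, he, add_neg_cancel]
      have hz : y + l • v ∈ S := by
        apply hno
        · rw [hermForm_add_left, hermForm_add_right hF, hermForm_add_right hF, hermForm_smul_left,
            hermForm_smul_left, hermForm_smul_right, hermForm_smul_right, hy, hv.2.1,
            ← hermForm_symm hF v y]
          rw [mul_pow] at hl
          linear_combination hl
        · rw [hermForm_add_right hF, hxy, hermForm_smul_right, hv.2.2, mul_one, zero_add]
          exact pow_ne_zero _ hl0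
      have hvS : v ∈ S := hno v hv.2.1 (by rw [hv.2.2]; exact one_ne_zero)
      have : y = (y + l • v) - l • v := by abel
      rw [this]
      exact S.sub_mem hz (S.smul_mem _ hvS)
    · exact hno y hy hxy
  obtain ⟨v, hv⟩ := exists_hyp' hF hu0 huu
  apply h.of_all hs hF
  intro x y
  have h3 : ee q x u ∈ B := by
    have := h.conjT _ (h2 u huu hu0 x)
    rwa [ee_conjT hs hF] at this
  have h4 := h.mul _ h3 _ (h2 v hv.2.1 (hv.symm hF).left_ne y)
  rw [ee_mul, (hv.symm hF).2.2, one_smul] at h4
  exact h4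

/-- If all diagonal entries on isotropic vectors vanish then the algebra is scalar. -/
theorem SAlg.scalar_of_iso (h : SAlg q B) (hF : Fintype.card F = q ^ 2) (ha : 2 ≤ a)
    (hz : ∀ A ∈ B, ∀ u : Fin a → F, hermForm a F q u u = 0 → hermForm a F q (A *ᵥ u) u = 0) :
    ∀ A ∈ B, ∃ c : F, A = c • 1 := by
  intro A hA
  have hz2 : ∀ A ∈ B, ∀ A' ∈ B, ∀ u : Fin a → F, hermForm a F q u u = 0 →
      hermForm a F q (A *ᵥ u) (A' *ᵥ u) = 0 := by
    intro A hA A' hA' u hu
    have h1 := hz _ (h.mul _ (h.conjT _ hA') _ hA) u hu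
    rw [← Matrix.mulVec_mulVec, adj_form hs hF, Matrix.conjTranspose_conjTranspose] at h1
    exact h1
  -- every isotropic vector is an eigenvector
  have heig : ∀ u : Fin a → F, u ≠ 0 → hermForm a F q u u = 0 → ∃ c : F, A *ᵥ u = c • u := by
    intro u hu0 hu
    obtain ⟨v, hv⟩ := exists_hyp' hF hu0 hu
    by_contra hcon
    push Not at hcon
    have hxx := hz2 A hA A hA u hu
    have hxu := hz A hA u hu
    set x := A *ᵥ u with hx
    -- reduce modulo `u`
    set m := hermForm a F q x v with hm
    let x' := x - m • u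
    have hx'0 : x' ≠ 0 := fun h0 => hcon m (sub_eq_zero.1 h0)
    have hx'u : hermForm a F q x' u = 0 := by
      simp only [x']
      rw [hermForm_sub_left, hermForm_smul_left, hxu, hu]; ring
    have hx'v : hermForm a F q x' v = 0 := by
      simp only [x']
      rw [hermForm_sub_left, hermForm_smul_left, hv.2.2, ← hm]; ring
    have hux : hermForm a F q u x = 0 := (hermForm_eq_zero_comm hF).1 hxu
    have hx'x' : hermForm a F q x' x' = 0 := by
      simp only [x']
      rw [hermForm_sub_left, hermForm_sub_right hF, hermForm_sub_right hF, hermForm_smul_left,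
        hermForm_smul_left, hermForm_smul_right, hermForm_smul_right, hxx, hxu, hux, hu]; ring
    -- a partner of `x'` orthogonal to `u`
    obtain ⟨y, hy⟩ := exists_form_ne hF hx'0
    let y' := y - hermForm a F q y u • v
    have hvu := (hv.symm hF).2.2
    have hy'u : hermForm a F q y' u = 0 := by
      simp only [y']
      rw [hermForm_sub_left, hermForm_smul_left, hvu]; ring
    have hx'y' : hermForm a F q x' y' ≠ 0 := by
      simp only [y']
      rw [hermForm_sub_right hF, hermForm_smul_right, hx'v, mul_zero, sub_zero]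
      exact hy
    obtain ⟨c, d, hc0, h1, h2⟩ := exists_hyp hF hx'x' hx'y'
    set w := c • y' + d • x' with hw
    have hwu : hermForm a F q w u = 0 := by
      rw [hw, hermForm_add_left, hermForm_smul_left, hermForm_smul_left, hy'u, hx'u]; ring
    have huw := (hermForm_eq_zero_comm hF).1 hwu
    have hxw : hermForm a F q x w = 1 := by
      have : x = x' + m • u := by simp only [x']; abel
      rw [this, hermForm_add_left, hermForm_smul_left, huw, mul_zero, add_zero]
      exact h2
    have hwx : hermForm a F q w x = 1 := by rw [← hermForm_symm hF, hxw, one_pow]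
    obtain ⟨e, he0, he⟩ := exists_skew hF
    obtain ⟨s, -, hsx⟩ := exists_transv hF h1 he
    have hsu : act s u = u := by rw [hsx, huw, mul_zero, zero_smul, add_zero]
    have h3 := hz2 _ (h.inv s A hA) A hA u hu
    have h4 : (((s : Matrix.SpecialLinearGroup (Fin a) F) : Matrix (Fin a) (Fin a) F) *
        A * ((s : Matrix.SpecialLinearGroup (Fin a) F) : Matrix (Fin a) (Fin a) F)ᴴ) *ᵥ u = act s x := by
      have h5 := SU_conjT_mulVec hs hF s u
      rw [hsu] at h5
      rw [← Matrix.mulVec_mulVec, h5, ← Matrix.mulVec_mulVec, ← hx, act_def]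
    rw [h4, hsx, ← hx, hxw, mul_one, hermForm_add_left, hermForm_smul_left, hxx, hwx, zero_add,
      mul_one] at h3
    exact he0 h3
  -- the eigenvalues agree
  obtain ⟨u₀, hu₀0, hu₀⟩ := exists_isotropic (F := F) hF ha
  obtain ⟨c, hc⟩ := heig u₀ hu₀0 hu₀
  have hno : ∀ u v : Fin a → F, ∀ c d : F, hermForm a F q u u = 0 → hermForm a F q v v = 0 →
      hermForm a F q u v ≠ 0 → A *ᵥ u = c • u → A *ᵥ v = d • v → c = d := by
    intro u v c d hu hv huv hcu hdv
    obtain ⟨l, hl0, hl⟩ : ∃ l : F, l ≠ 0 ∧ l * hermForm a F q v u + (l * hermForm a F q v u) ^ q = 0 := by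
      have hb : hermForm a F q v u ≠ 0 := fun h => huv ((hermForm_eq_zero_comm hF).1 h)
      obtain ⟨e, he0, he⟩ := exists_skew hF
      refine ⟨e / hermForm a F q v u, div_ne_zero he0 hb, ?_⟩
      rw [div_mul_cancel₀ _ hb, he, add_neg_cancel]
    have hz' : hermForm a F q (u + l • v) (u + l • v) = 0 := by
      rw [hermForm_add_left, hermForm_add_right hF, hermForm_add_right hF, hermForm_smul_left,
        hermForm_smul_left, hermForm_smul_right, hermForm_smul_right, hu, hv,
        ← hermForm_symm hF v u]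
      rw [mul_pow] at hl
      linear_combination hl
    have hne : u + l • v ≠ 0 := by
      intro h0
      have : hermForm a F q (u + l • v) v = 0 := by rw [h0, hermForm_zero_left]
      rw [hermForm_add_left, hermForm_smul_left, hv, mul_zero, add_zero] at this
      exact huv this
    obtain ⟨m, hm⟩ := heig _ hne hz'
    rw [Matrix.mulVec_add, Matrix.mulVec_smul, hcu, hdv] at hm
    have h1 : (c - m) • u + (l * (d - m)) • v = 0 := by
      have : (c - m) • u + (l * (d - m)) • v = (c • u + l • d • v) - m • (u + l • v) := by module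
      rw [this, hm, sub_self]
    have h2 : hermForm a F q ((c - m) • u + (l * (d - m)) • v) v = 0 := by
      rw [h1, hermForm_zero_left]
    rw [hermForm_add_left, hermForm_smul_left, hermForm_smul_left, hv, mul_zero, add_zero] at h2
    have h3 : c = m := sub_eq_zero.1 ((mul_eq_zero.1 h2).resolve_right huv)
    have h4 : hermForm a F q ((c - m) • u + (l * (d - m)) • v) u = 0 := by
      rw [h1, hermForm_zero_left]
    rw [hermForm_add_left, hermForm_smul_left, hermForm_smul_left, hu, mul_zero, zero_add] at h4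
    have hvu : hermForm a F q v u ≠ 0 := fun h => huv ((hermForm_eq_zero_comm hF).1 h)
    have h5 : d = m := sub_eq_zero.1 ((mul_eq_zero.1 ((mul_eq_zero.1 h4).resolve_right hvu)).resolve_left hl0)
    rw [h3, h5]
  have hall : ∀ x, hermForm a F q x x = 0 → A *ᵥ x = c • x := by
    intro x hx
    by_cases hx0 : x = 0
    · rw [hx0, Matrix.mulVec_zero, smul_zero]
    obtain ⟨z, hzz, h1, h2⟩ := exists_isotropic_form_ne_two hF ha hu₀0 hx0
    have hz0 : z ≠ 0 := by
      rintro rfl
      exact h1 (hermForm_zero_right hF _)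
    obtain ⟨d, hd⟩ := heig z hz0 hzz
    obtain ⟨m, hm⟩ := heig x hx0 hx
    rw [hm, hno u₀ z c d hu₀ hzz h1 hc hd, hno x z m d hx hzz h2 hm hd]
  let S : Submodule F (Fin a → F) :=
    { carrier := {x | A *ᵥ x = c • x}
      zero_mem' := by simp
      add_mem' := by
        intro x y hx hy
        change A *ᵥ (x + y) = c • (x + y)
        rw [Matrix.mulVec_add, hx, hy, smul_add]
      smul_mem' := by
        intro l x hx
        change A *ᵥ (l • x) = c • l • x
        rw [Matrix.mulVec_smul, hx, smul_comm] }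
  refine ⟨c, ?_⟩
  ext i j
  have h1 : A *ᵥ (Pi.single j 1) = c • (Pi.single j 1 : Fin a → F) :=
    top_le_of_isotropic hF ha (S := S) hall (Pi.single j 1)
  have h2 := congrFun h1 i
  rw [Matrix.mulVec_single_one] at h2
  rw [Matrix.smul_apply, Matrix.one_apply, smul_eq_mul]
  change A i j = c * (Pi.single j (1 : F) : Fin a → F) i at h2
  rw [h2, Pi.single_apply]

end Cfsg.Agent.UTP
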