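import Mathlib
import Cfsg.Agent.UTP.AlgU

set_option autoImplicit false
set_option linter.unusedSectionVars false
set_option linter.unusedVariables false

/-!
Subalgebras of the matrix algebra closed under adjoints and normalised by `SU`: the dichotomy.
-/

namespace Cfsg.Agent.UTP

open scoped Matrix
open Cfsg.Agent.Uni Module
open Matrix (GeneralLinearGroup)

variable {F : Type*} [Field F] [Fintype F] [StarRing F] {q a : ℕ}
variable (hs : ∀ x : F, star x = x ^ q) {B : Set (Matrix (Fin a) (Fin a) F)}

/-- A fixed element different from zero and one. -/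
theorem exists_fixed_ne (hF : Fintype.card F = q ^ 2) (hq : 3 ≤ q) : ∃ t : F, t ^ q = t ∧ t ≠ 0 ∧ t ≠ 1 := by
  classical
  by_contra hcon
  push Not at hcon
  have h1 := card_fixed (F := F) hF
  have h2 : Nat.card {c : F // c ^ q = c} ≤ 2 := by
    let φ : {c : F // c ^ q = c} → Bool := fun c => decide (c.1 = 0)
    have hφ : Function.Injective φ := by
      rintro ⟨c, hc⟩ ⟨d, hd⟩ h
      simp only [φ, decide_eq_decide] at h
      apply Subtype.ext
      by_cases hc0 : c = 0
      · exact hc0.trans (h.1 hc0).symm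
      · have hd0 : d ≠ 0 := fun hd0 => hc0 (h.2 hd0)
        exact (hcon c hc hc0).trans (hcon d hd hd0).symm
    have := Nat.card_le_card_of_injective φ hφ
    simpa using this
  omega

include hs

theorem transv_conj (h : SAlg q B) (hF : Fintype.card F = q ^ 2) {u : Fin a → F}
    (huu : hermForm a F q u u = 0) {c : F} (hc : c ^ q = -c) {A : Matrix (Fin a) (Fin a) F}
    (hA : A ∈ B) : c • (ee q u u * A) - c • (A * ee q u u) - (c * c) • (ee q u u * A * ee q u u) ∈ B := by
  obtain ⟨s, -, hsx⟩ := exists_transv hF huu hc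
  have h1 := h.inv s A hA
  have hM : ((s : Matrix.SpecialLinearGroup (Fin a) F) : Matrix (Fin a) (Fin a) F) =
      1 + c • ee q u u := by
    ext i j
    have h2 := congrFun (hsx (Pi.single j 1)) i
    rw [act_def, Matrix.mulVec_single_one] at h2
    have h3 : ((1 + c • ee q u u) *ᵥ (Pi.single j (1 : F))) i =
        (Pi.single j (1 : F) + (c * hermForm a F q (Pi.single j 1) u) • u : Fin a → F) i := by
      rw [Matrix.add_mulVec, Matrix.one_mulVec, Matrix.smul_mulVec, ee_mulVec, smul_smul]
    rw [Matrix.mulVec_single_one] at h3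
    exact h2.trans h3.symm
  have hMH : (1 + c • ee q u u)ᴴ = 1 - c • ee q u u := by
    rw [Matrix.conjTranspose_add, Matrix.conjTranspose_one, Matrix.conjTranspose_smul,
      ee_conjT hs hF, hs, hc]
    module
  rw [hM, hMH] at h1
  have h2 := h.sub h1 hA
  convert h2 using 1
  simp only [Matrix.add_mul, Matrix.mul_sub, Matrix.one_mul, Matrix.mul_one, Matrix.smul_mul,
    Matrix.mul_smul]
  module

/-- The case `q ≥ 3`. -/
theorem SAlg.dichotomy_three (h : SAlg q B) (hF : Fintype.card F = q ^ 2) (ha : 2 ≤ a) (hq : 3 ≤ q) :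
    (∀ A ∈ B, ∃ c : F, A = c • 1) ∨ ∀ A, A ∈ B := by
  by_cases hz : ∀ A ∈ B, ∀ u : Fin a → F, hermForm a F q u u = 0 → hermForm a F q (A *ᵥ u) u = 0
  · exact Or.inl (h.scalar_of_iso hs hF ha hz)
  · right
    push Not at hz
    obtain ⟨A, hA, u, huu, hne⟩ := hz
    have hu0 : u ≠ 0 := by
      rintro rfl
      rw [hermForm_zero_right hF] at hne
      exact hne rfl
    obtain ⟨c, hc0, hc⟩ := exists_skew hF
    obtain ⟨t, ht, ht0, ht1⟩ := exists_fixed_ne (F := F) hF hq
    have h1 := transv_conj hs h hF huu hc hA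
    have h2 := transv_conj hs h hF huu (c := t * c) (by rw [mul_pow, ht, hc]; ring) hA
    have h3 : ee q u u * A * ee q u u = hermForm a F q (A *ᵥ u) u • ee q u u := by
      rw [Matrix.mul_assoc, mul_ee, ee_mul]
    rw [h3] at h1 h2
    have h4 := h.sub (h.smul t _ h1) h2
    have h5 : t • (c • (ee q u u * A) - c • (A * ee q u u) - (c * c) • hermForm a F q (A *ᵥ u) u • ee q u u) -
        ((t * c) • (ee q u u * A) - (t * c) • (A * ee q u u) -
          (t * c * (t * c)) • hermForm a F q (A *ᵥ u) u • ee q u u) =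
        ((t * (t - 1)) * (c * c) * hermForm a F q (A *ᵥ u) u) • ee q u u := by
      module
    rw [h5] at h4
    exact h.top_of_iso hs hF ha hu0 huu (h.of_smul (mul_ne_zero (mul_ne_zero
      (mul_ne_zero ht0 (sub_ne_zero.2 ht1)) (mul_ne_zero hc0 hc0)) hne) h4)

omit hs in
/-- Orthonormal systems are conjugate under `SU`. -/
theorem exists_SU_ON (hF : Fintype.card F = q ^ 2) {k : ℕ} {v w : Fin k → Fin a → F}
    (hv : IsON q v) (hw : IsON q w) (hk : k < a) : ∃ s : SU a F q, ∀ i, act s (v i) = w i := by
  obtain ⟨g, hg⟩ := exists_GU_of_ON hF hv hw hk.le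
  obtain ⟨z, hz, hzw⟩ := hw.exists_extend hF hk
  set d : F := ((detHom hF a g : Fˣ) : F) with hd
  have hdn : d ^ (q + 1) = 1 := by
    have h1 := GU_pres g
    have h2 := h1.det_norm hF
    rw [hd, detHom_coe]
    exact h2
  have hd0 : d ≠ 0 := by
    intro h0
    rw [h0, zero_pow (by omega)] at hdn
    exact zero_ne_one hdn
  obtain ⟨r, hr, hrd⟩ := exists_grefl hF hz (a := d⁻¹) (by rw [inv_pow, hdn, inv_one])
  obtain ⟨s, hs'⟩ := exists_SU_of_GU hF (r * g) (by
    rw [map_mul]
    change ((detHom hF a r : Fˣ) : F) * ((detHom hF a g : Fˣ) : F) = 1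
    rw [hrd, ← hd, inv_mul_cancel₀ hd0])
  refine ⟨s, fun i => ?_⟩
  rw [hs', gact_mul, hr]
  have h3 : gact g (v i) = w i := hg i
  rw [h3, (hermForm_eq_zero_comm hF).1 (hzw i), mul_zero, zero_smul, add_zero]

/-- One unit vector generates everything, `q = 2`. -/
theorem SAlg.top_of_unit_two (h : SAlg q B) (hF : Fintype.card F = q ^ 2) (ha : 3 ≤ a) (hq : q = 2)
    {y : Fin a → F} (hy : hermForm a F q y y = 1) (hyB : ee q y y ∈ B)
    (A : Matrix (Fin a) (Fin a) F) : A ∈ B := by
  have hchar : (2 : F) = 0 := by
    have h1 : ((Fintype.card F : ℕ) : F) = 0 := Nat.cast_card_eq_zero F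
    rw [hF, hq] at h1
    have h2 : (2 : F) ^ 2 = 0 := by exact_mod_cast h1
    exact pow_eq_zero_iff (by norm_num) |>.1 h2
  have honey : IsON q (fun _ : Fin 1 => y) := by
    intro i j
    rw [Subsingleton.elim i j, if_pos rfl, hy]
  have hunit : ∀ y' : Fin a → F, hermForm a F q y' y' = 1 → ee q y' y' ∈ B := by
    intro y' hy'
    have honey' : IsON q (fun _ : Fin 1 => y') := by
      intro i j
      rw [Subsingleton.elim i j, if_pos rfl, hy']
    obtain ⟨s, hs1⟩ := exists_SU_ON hF honey honey' (by omega)
    have h2 := h.conj_ee hs hF s hyB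
    have h3 : act s y = y' := hs1 0
    rwa [h3] at h2
  obtain ⟨bb, hbb, hbb0⟩ := honey.exists_complete hF (by omega)
  let i0 : Fin a := ⟨0, by omega⟩
  have hb0 : bb i0 = y := hbb0 0
  let S : Submodule F (Fin a → F) :=
    { carrier := {x | ee q y x ∈ B}
      zero_mem' := by
        change ee q y 0 ∈ B
        rw [ee_zero_right hF]
        have := h.smul 0 _ h.one
        rwa [zero_smul] at this
      add_mem' := by
        intro x z hx hz
        change ee q y (x + z) ∈ B
        rw [ee_add_right hF]
        exact h.add _ hx _ hz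
      smul_mem' := by
        intro c x hx
        change ee q y (c • x) ∈ B
        rw [ee_smul_right]
        exact h.smul _ _ hx }
  have hyS : y ∈ S := hyB
  have hno : ∀ z, hermForm a F q z z = 1 → hermForm a F q y z ≠ 0 → z ∈ S := by
    intro z hz hyz
    have h1 := h.mul _ hyB _ (hunit z hz)
    rw [ee_mul] at h1
    have hzy : hermForm a F q z y ≠ 0 := fun h => hyz ((hermForm_eq_zero_comm hF).1 h)
    exact h.of_smul hzy h1
  obtain ⟨ζ, hζ, hζ1⟩ := exists_norm_one_ne (F := F) hF
  have hother : ∀ i, i ≠ i0 → bb i ∈ S := by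
    intro i hi
    obtain ⟨j, hj0, hji⟩ : ∃ j : Fin a, j ≠ i0 ∧ j ≠ i := by
      by_contra hcon
      push Not at hcon
      have : (Finset.univ : Finset (Fin a)) ⊆ {i0, i} := by
        intro j _
        rw [Finset.mem_insert, Finset.mem_singleton]
        by_cases h0 : j = i0
        · exact Or.inl h0
        · exact Or.inr (hcon j h0)
      have h1 := Finset.card_le_card this
      rw [Finset.card_univ, Fintype.card_fin] at h1
      have h2 := Finset.card_le_two (a := i0) (b := i)
      omega
    have key : ∀ c : F, c ^ (q + 1) = 1 → y + c • bb i + bb j ∈ S := by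
      intro c hc
      have e0i : hermForm a F q y (bb i) = 0 := by rw [← hb0, hbb, if_neg hi.symm]
      have e0j : hermForm a F q y (bb j) = 0 := by rw [← hb0, hbb, if_neg hj0.symm]
      have eij : hermForm a F q (bb i) (bb j) = 0 := by rw [hbb, if_neg hji.symm]
      have ei0 := (hermForm_eq_zero_comm hF).1 e0i
      have ej0 := (hermForm_eq_zero_comm hF).1 e0j
      have eji := (hermForm_eq_zero_comm hF).1 eij
      have eii : hermForm a F q (bb i) (bb i) = 1 := by rw [hbb, if_pos rfl]
      have ejj : hermForm a F q (bb j) (bb j) = 1 := by rw [hbb, if_pos rfl]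
      apply hno
      · simp only [hermForm_add_left, hermForm_add_right hF, hermForm_smul_left, hermForm_smul_right,
          hy, e0i, e0j, eij, ei0, ej0, eji, eii, ejj]
        rw [pow_succ] at hc
        linear_combination hc + hchar
      · rw [hermForm_add_right hF, hermForm_add_right hF, hermForm_smul_right, hy, e0i, e0j]
        simp
    have k1 := key 1 (one_pow _)
    have k2 := key ζ hζ
    have : bb i = (ζ - 1)⁻¹ • ((y + ζ • bb i + bb j) - (y + (1 : F) • bb i + bb j)) := by
      have e : (y + ζ • bb i + bb j) - (y + (1 : F) • bb i + bb j) = (ζ - 1) • bb i := by module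
      rw [e, smul_smul, inv_mul_cancel₀ (sub_ne_zero.2 hζ1), one_smul]
    rw [this]
    exact S.smul_mem _ (S.sub_mem k2 k1)
  have hall : ∀ x, x ∈ S := by
    intro x
    rw [← hbb.sum_eq hF x]
    refine S.sum_mem fun i _ => S.smul_mem _ ?_
    by_cases hi : i = i0
    · rw [hi, hb0]; exact hyS
    · exact hother i hi
  apply h.of_all hs hF
  intro x z
  have h1 : ee q x y ∈ B := by
    have := h.conjT _ (hall x)
    rwa [ee_conjT hs hF] at this
  have h2 := h.mul _ h1 _ (hall z)
  rwa [ee_mul, hy, one_smul] at h2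

/-- The case `q = 2`. -/
theorem SAlg.dichotomy_two (h : SAlg q B) (hF : Fintype.card F = q ^ 2) (ha : 3 ≤ a) (hq : q = 2) :
    (∀ A ∈ B, ∃ c : F, A = c • 1) ∨ ∀ A, A ∈ B := by
  have hchar : (2 : F) = 0 := by
    have h1 : ((Fintype.card F : ℕ) : F) = 0 := Nat.cast_card_eq_zero F
    rw [hF, hq] at h1
    have h2 : (2 : F) ^ 2 = 0 := by exact_mod_cast h1
    exact pow_eq_zero_iff (by norm_num) |>.1 h2
  by_cases hz : ∀ A ∈ B, ∀ u : Fin a → F, hermForm a F q u u = 0 → hermForm a F q (A *ᵥ u) u = 0
  · exact Or.inl (h.scalar_of_iso hs hF (by omega) hz)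
  · right
    push Not at hz
    obtain ⟨A₀, hA₀, u, huu, hne⟩ := hz
    have hu0 : u ≠ 0 := by
      rintro rfl
      rw [hermForm_zero_right hF] at hne
      exact hne rfl
    -- a Hermitian element
    obtain ⟨m, hm⟩ := exists_trace_eq hF (c := 1) (one_pow q)
    set al := hermForm a F q (A₀ *ᵥ u) u with hal
    obtain ⟨A, hA⟩ : ∃ A, A = (m / al) • A₀ + ((m / al) ^ q) • A₀ᴴ := ⟨_, rfl⟩
    have hAB : A ∈ B := by
      rw [hA]
      exact h.add _ (h.smul _ _ hA₀) _ (h.smul _ _ (h.conjT _ hA₀))
    have hAH : Aᴴ = A := by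
      rw [hA, Matrix.conjTranspose_add, Matrix.conjTranspose_smul, Matrix.conjTranspose_smul,
        Matrix.conjTranspose_conjTranspose, hs, hs, pow_q_pow_q hF]
      abel
    have hAu : hermForm a F q (A *ᵥ u) u = 1 := by
      have h1 : hermForm a F q (A₀ᴴ *ᵥ u) u = al ^ q := by
        rw [adj_form hs hF, Matrix.conjTranspose_conjTranspose, ← hermForm_symm hF]
      rw [hA, Matrix.add_mulVec, Matrix.smul_mulVec, Matrix.smul_mulVec, hermForm_add_left,
        hermForm_smul_left, hermForm_smul_left, h1, ← hal, ← mul_pow, div_mul_cancel₀ _ hne]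
      exact hm
    have huA : hermForm a F q u (A *ᵥ u) = 1 := by rw [← hermForm_symm hF, hAu, one_pow]
    have hone : (1 : F) ^ q = -1 := by rw [one_pow]; linear_combination hchar
    have h1 := transv_conj hs h hF huu hone hAB
    set E := ee q u u with hE
    have hEAE : E * A * E = E := by
      rw [hE, Matrix.mul_assoc, mul_ee, ee_mul, hAu, one_smul]
    have hEE : E * E = 0 := by rw [hE, ee_mul, huu, zero_smul]
    rw [one_smul, one_smul, one_mul, one_smul, hEAE] at h1
    have hA' : E * A + A * E + E ∈ B := by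
      have h2 : E * A - A * E - E = E * A + A * E + E := by
        have h3 : (2 : F) • (A * E + E) = 0 := by rw [hchar, zero_smul]
        rw [two_smul] at h3
        have h4 : E * A + A * E + E - (E * A - A * E - E) = (A * E + E) + (A * E + E) := by abel
        rw [h3, sub_eq_zero] at h4
        exact h4.symm
      rwa [h2] at h1
    obtain ⟨x, hx⟩ : ∃ x, x = A *ᵥ u := ⟨_, rfl⟩
    have hEA : E * A = ee q u x := by rw [hE, ee_mul_right hs hF, hAH, hx]
    have hAE : A * E = ee q x u := by rw [hE, mul_ee, hx]
    rw [hEA, hAE, hE] at hA'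
    rw [← hx] at hAu huA
    have hbq : hermForm a F q x x ^ q = hermForm a F q x x := hermForm_self_pow_q hF x
    by_cases hxx : hermForm a F q x x = 0
    · -- the square gives the matrix unit
      have h3 := h.sub hA' (h.mul _ hA' _ hA')
      have h4 : ee q u x + ee q x u + ee q u u - (ee q u x + ee q x u + ee q u u) *
          (ee q u x + ee q x u + ee q u u) = -ee q u u := by
        simp only [Matrix.add_mul, Matrix.mul_add, ee_mul, huA, hAu, hxx, huu, one_smul, zero_smul,
          add_zero, zero_add]
        abel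
      rw [h4] at h3
      have h5 := h.smul (-1) _ h3
      rw [neg_one_smul, neg_neg] at h5
      exact h.top_of_iso hs hF (by omega) hu0 huu h5
    · -- an orthogonal projection of rank two
      have hxx1 : hermForm a F q x x = 1 := by
        rw [hq] at hbq
        have h6 : hermForm a F 2 x x * hermForm a F 2 x x = hermForm a F 2 x x * 1 := by
          rw [mul_one, ← sq, hbq]
        rw [hq] at hxx ⊢
        exact mul_left_cancel₀ hxx h6
      obtain ⟨y, hy⟩ : ∃ y, y = u + x := ⟨_, rfl⟩
      have hyy : hermForm a F q y y = 1 := by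
        rw [hy]
        simp only [hermForm_add_left, hermForm_add_right hF, huu, huA, hAu, hxx1]
        linear_combination hchar
      have hxy : hermForm a F q x y = 0 := by
        rw [hy]
        simp only [hermForm_add_left, hermForm_add_right hF, huu, huA, hAu, hxx1]
        linear_combination hchar
      have hyx := (hermForm_eq_zero_comm hF).1 hxy
      have hproj : ee q x x + ee q y y ∈ B := by
        have h6 : ee q x x + ee q y y = ee q u x + ee q x u + ee q u u := by
          rw [hy, ee_add_right hF, ee_add_left, ee_add_left]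
          have h7 : (2 : F) • ee q x x = 0 := by rw [hchar, zero_smul]
          rw [two_smul] at h7
          have h8 : ee q x x + (ee q u u + ee q x u + (ee q u x + ee q x x)) =
            ee q u x + ee q x u + ee q u u + (ee q x x + ee q x x) := by abel
          rw [h8, h7, add_zero]
        rw [h6]
        exact hA'
      have hon : IsON q (![x, y] : Fin 2 → Fin a → F) := by
        intro i j
        fin_cases i <;> fin_cases j <;> simp [hxx1, hyy, hxy, hyx]
      obtain ⟨z, hz, hzo⟩ := hon.exists_extend hF (by omega)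
      have hzx : hermForm a F q z x = 0 := hzo 0
      have hzy : hermForm a F q z y = 0 := hzo 1
      have hon2 : IsON q (![y, z] : Fin 2 → Fin a → F) := by
        have hyz := (hermForm_eq_zero_comm hF).1 hzy
        intro i j
        fin_cases i <;> fin_cases j <;> simp [hz, hyy, hzy, hyz]
      obtain ⟨s, hs1⟩ := exists_SU_ON hF hon hon2 (by omega)
      have hsx : act s x = y := hs1 0
      have hsy : act s y = z := hs1 1
      have h9 := h.inv s _ hproj
      rw [Matrix.mul_add, Matrix.add_mul, mul_ee, mul_ee, ee_mul_right hs hF, ee_mul_right hs hF,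
        Matrix.conjTranspose_conjTranspose] at h9
      have h10 : ee q y y + ee q z z ∈ B := by
        rw [← hsx, ← hsy] at *
        simpa only [act_def] using h9
      have h11 := h.mul _ hproj _ h10
      have hxz := (hermForm_eq_zero_comm hF).1 hzx
      have hyz := (hermForm_eq_zero_comm hF).1 hzy
      have h12 : (ee q x x + ee q y y) * (ee q y y + ee q z z) = ee q y y := by
        simp only [Matrix.add_mul, Matrix.mul_add, ee_mul, hyx, hzx, hzy, hyy, one_smul, zero_smul,
          add_zero, zero_add]
      rw [h12] at h11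
      exact h.top_of_unit_two hs hF ha hq hyy h11

/-- The dichotomy. -/
theorem SAlg.dichotomy (h : SAlg q B) (hF : Fintype.card F = q ^ 2) (ha : 2 ≤ a)
    (hex : ¬ (a = 2 ∧ q = 2)) : (∀ A ∈ B, ∃ c : F, A = c • 1) ∨ ∀ A, A ∈ B := by
  have hq := two_le_q hF
  by_cases hq3 : 3 ≤ q
  · exact h.dichotomy_three hs hF ha hq3
  · exact h.dichotomy_two hs hF (by omega) (by omega)

end Cfsg.Agent.UTP
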