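import Mathlib
import Cfsg.Agent.UTP.Calc
import Cfsg.Agent.UTP.Geo

set_option autoImplicit false
set_option linter.unusedSectionVars false
set_option linter.unusedVariables false

/-!
Coefficients of root elements in a group containing `1 ⊗ SU(W)`.
-/

namespace Cfsg.Agent.UTP

open scoped Matrix
open Cfsg.Agent.Uni Module
open Matrix (GeneralLinearGroup)

variable {F : Type*} [Field F] [Fintype F] [StarRing F] {q b : ℕ}
variable {α : Type*} [Fintype α] [DecidableEq α]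

/-- Matrices of elements of `K`. -/
def InK (K : Subgroup (GL (α × Fin b) F)) (M : Matrix (α × Fin b) (α × Fin b) F) : Prop :=
  ∃ g ∈ K, (g : Matrix (α × Fin b) (α × Fin b) F) = M

/-- `1 + X` is in `K`. -/
def KN (K : Subgroup (GL (α × Fin b) F)) (X : Matrix (α × Fin b) (α × Fin b) F) : Prop :=
  InK K (1 + X)

/-- The standing assumptions. -/
structure Ctx (q : ℕ) (K : Subgroup (GL (α × Fin b) F)) : Prop where
  uni : ∀ g ∈ K, (g : Matrix (α × Fin b) (α × Fin b) F)ᴴ * (g : Matrix (α × Fin b) (α × Fin b) F) = 1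
  su : ∀ s : SU b F q, ∃ G : Matrix (α × Fin b) (α × Fin b) F, InK K G ∧
    ∀ w : Fin b → F, G * io α w = io α (act s w)

variable {K : Subgroup (GL (α × Fin b) F)}

theorem InK.mul {M N : Matrix (α × Fin b) (α × Fin b) F} (hM : InK K M) (hN : InK K N) :
    InK K (M * N) := by
  obtain ⟨g, hg, rfl⟩ := hM
  obtain ⟨h, hh, rfl⟩ := hN
  exact ⟨g * h, K.mul_mem hg hh, Units.val_mul _ _⟩

theorem InK.one : InK K (1 : Matrix (α × Fin b) (α × Fin b) F) := ⟨1, K.one_mem, Units.val_one⟩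

theorem InK.inv {M N : Matrix (α × Fin b) (α × Fin b) F} (hM : InK K M) (h : M * N = 1) :
    InK K N := by
  obtain ⟨g, hg, rfl⟩ := hM
  refine ⟨g⁻¹, K.inv_mem hg, ?_⟩
  calc ((g⁻¹ : GL (α × Fin b) F) : Matrix (α × Fin b) (α × Fin b) F) =
      ((g⁻¹ : GL (α × Fin b) F) : Matrix (α × Fin b) (α × Fin b) F) * (g * N) := by
        rw [h, Matrix.mul_one]
    _ = N := by
        rw [← Matrix.mul_assoc, ← Units.val_mul, inv_mul_cancel, Units.val_one, Matrix.one_mul]

theorem Ctx.conjT_mul (h : Ctx q K) {M : Matrix (α × Fin b) (α × Fin b) F} (hM : InK K M) :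
    Mᴴ * M = 1 := by
  obtain ⟨g, hg, rfl⟩ := hM
  exact h.uni g hg

theorem Ctx.mul_conjT (h : Ctx q K) {M : Matrix (α × Fin b) (α × Fin b) F} (hM : InK K M) :
    M * Mᴴ = 1 := by
  obtain ⟨g, hg, rfl⟩ := hM
  have h1 := h.uni g hg
  calc (g : Matrix (α × Fin b) (α × Fin b) F) * (g : Matrix (α × Fin b) (α × Fin b) F)ᴴ =
      (g : Matrix (α × Fin b) (α × Fin b) F) * ((g : Matrix (α × Fin b) (α × Fin b) F)ᴴ *
        ((g : Matrix (α × Fin b) (α × Fin b) F) * ((g⁻¹ : GL (α × Fin b) F) : Matrix (α × Fin b) (α × Fin b) F))) := by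
        rw [← Units.val_mul, mul_inv_cancel, Units.val_one, Matrix.mul_one]
    _ = 1 := by
        rw [← Matrix.mul_assoc (g : Matrix (α × Fin b) (α × Fin b) F)ᴴ, h1, Matrix.one_mul,
          ← Units.val_mul, mul_inv_cancel, Units.val_one]

theorem Ctx.conjT_mem (h : Ctx q K) {M : Matrix (α × Fin b) (α × Fin b) F} (hM : InK K M) :
    InK K Mᴴ := hM.inv (h.mul_conjT hM)

theorem KN.zero : KN K (0 : Matrix (α × Fin b) (α × Fin b) F) := by
  unfold KN
  rw [add_zero]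
  exact InK.one

theorem KN.add {X Y : Matrix (α × Fin b) (α × Fin b) F} (hX : KN K X) (hY : KN K Y)
    (h : X * Y = 0) : KN K (X + Y) := by
  have := InK.mul hX hY
  unfold KN
  convert this using 1
  rw [Matrix.add_mul, Matrix.one_mul, Matrix.mul_add, h, Matrix.mul_one]
  abel

theorem KN.neg {X : Matrix (α × Fin b) (α × Fin b) F} (hX : KN K X) (h : X * X = 0) : KN K (-X) := by
  refine InK.inv hX ?_
  rw [Matrix.add_mul, Matrix.one_mul, Matrix.mul_add, Matrix.mul_neg, h, Matrix.mul_one]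
  abel

theorem KN.sub {X Y : Matrix (α × Fin b) (α × Fin b) F} (hX : KN K X) (hY : KN K Y)
    (h : Y * Y = 0) (h' : X * Y = 0) : KN K (X - Y) := by
  rw [sub_eq_add_neg]
  exact hX.add (hY.neg h) (by rw [Matrix.mul_neg, h', neg_zero])

theorem Ctx.kn_conj (h : Ctx q K) {G X : Matrix (α × Fin b) (α × Fin b) F} (hG : InK K G)
    (hX : KN K X) : KN K (G * X * Gᴴ) := by
  have := (hG.mul hX).mul (h.conjT_mem hG)
  unfold KN
  convert this using 1
  rw [Matrix.mul_add, Matrix.mul_one, Matrix.add_mul, h.mul_conjT hG]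

/-- Coefficients of long root elements. -/
def AA (q : ℕ) (K : Subgroup (GL (α × Fin b) F)) : Set (Matrix α α F) :=
  {A | ∀ w : Fin b → F, hermForm b F q w w = 0 → KN K (tt w A w)}

/-- Coefficients of short root elements. -/
def BB (q : ℕ) (K : Subgroup (GL (α × Fin b) F)) : Set (Matrix α α F) :=
  {A | ∀ y z : Fin b → F, hermForm b F q y y = 0 → hermForm b F q z z = 0 →
    hermForm b F q y z = 0 → KN K (tt y A z - tt z Aᴴ y)}

variable (hF : Fintype.card F = q ^ 2) (hs : ∀ x : F, star x = x ^ q)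

theorem ext_io {κ : Type*} {M N : Matrix κ (α × Fin b) F} (h : ∀ w : Fin b → F, M * io α w = N * io α w) :
    M = N := by
  ext k ⟨i, j⟩
  have h1 := congrFun (congrFun (h (Pi.single j 1)) k) i
  have key : ∀ (M : Matrix κ (α × Fin b) F), (M * io α (Pi.single j (1 : F) : Fin b → F)) k i = M k (i, j) := by
    intro M
    rw [Matrix.mul_apply, Finset.sum_eq_single (i, j)]
    · simp [io]
    · rintro ⟨i', j'⟩ _ hne
      simp only [io, Matrix.of_apply]
      by_cases h1 : i' = i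
      · subst h1
        have : j' ≠ j := fun h => hne (by rw [h])
        simp [this]
      · simp [h1]
    · intro h; exact absurd (Finset.mem_univ _) h
  rwa [key, key] at h1

include hs

/-- Transvections. -/
theorem Ctx.scalar_mem (h : Ctx q K) (hF : Fintype.card F = q ^ 2) {c : F} (hc : c ^ q = -c) :
    c • (1 : Matrix α α F) ∈ AA q K := by
  intro w hw
  obtain ⟨s, -, hsx⟩ := exists_transv hF hw hc
  obtain ⟨G, hG, hGw⟩ := h.su s
  unfold KN
  have : 1 + tt w (c • (1 : Matrix α α F)) w = G := by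
    apply ext_io
    intro z
    rw [hGw, hsx, io_add, io_smul, Matrix.add_mul, Matrix.one_mul, tt_mul_io hs, Matrix.mul_smul,
      Matrix.mul_one, smul_smul, mul_comm]
  rw [this]
  exact hG

theorem Ctx.aa_of_one (h : Ctx q K) (hF : Fintype.card F = q ^ 2) (hb : 3 ≤ b) {A : Matrix α α F}
    {w : Fin b → F} (hw0 : w ≠ 0) (hw : hermForm b F q w w = 0) (hA : KN K (tt w A w)) :
    A ∈ AA q K := by
  intro w' hw'
  by_cases hw'0 : w' = 0
  · rw [hw'0, tt_zero_left]
    exact KN.zero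
  obtain ⟨s, hsw⟩ := exists_SU_isotropic hF hb hw0 hw'0 hw hw'
  obtain ⟨G, hG, hGw⟩ := h.su s
  have h1 := h.kn_conj hG hA
  have h2 : G * tt w A w * Gᴴ = tt w' A w' := by
    unfold tt
    rw [← Matrix.mul_assoc, ← Matrix.mul_assoc, hGw, hsw, Matrix.mul_assoc _ _ Gᴴ,
      ← Matrix.conjTranspose_mul, hGw, hsw]
  rwa [h2] at h1

theorem Ctx.skew_of_kn (h : Ctx q K) {A : Matrix α α F} {w : Fin b → F} (hw0 : w ≠ 0)
    (hw : hermForm b F q w w = 0) (hA : KN K (tt w A w)) : Aᴴ = -A := by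
  have h1 := h.conjT_mul hA
  rw [Matrix.conjTranspose_add, Matrix.conjTranspose_one, tt_conj, Matrix.add_mul, Matrix.one_mul,
    Matrix.mul_add, Matrix.mul_one, tt_mul hs, hw, zero_smul, add_zero] at h1
  have h2 : tt w (A + Aᴴ) w = tt w (0 : Matrix α α F) w := by
    rw [tt_add_mid, tt_zero_mid]
    have : 1 + (tt w A w + tt w Aᴴ w) = 1 + 0 := by rw [← add_assoc, h1, add_zero]
    exact add_left_cancel this
  have h3 := tt_inj hw0 hw0 h2
  exact eq_neg_of_add_eq_zero_right h3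

theorem Ctx.aa_skew (h : Ctx q K) (hF : Fintype.card F = q ^ 2) (hb : 2 ≤ b) {A : Matrix α α F}
    (hA : A ∈ AA q K) : Aᴴ = -A := by
  obtain ⟨w, hw0, hw⟩ := exists_isotropic (F := F) hF hb
  exact h.skew_of_kn hs hw0 hw (hA w hw)

theorem aa_short (hF : Fintype.card F = q ^ 2) {A : Matrix α α F} (hA : A ∈ AA q K)
    {y z : Fin b → F} (hy : hermForm b F q y y = 0)
    (hz : hermForm b F q z z = 0) (hyz : hermForm b F q y z = 0) :
    KN K (tt y A z + tt z A y) := by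
  have hzy := (hermForm_eq_zero_comm hF).1 hyz
  have h1 := hA (y + z) (by
    rw [hermForm_add_left, hermForm_add_right hF, hermForm_add_right hF, hy, hz, hyz, hzy]; ring)
  have e : tt (y + z) A (y + z) = tt y A y + tt z A y + (tt y A z + tt z A z) := by
    rw [tt_add_right, tt_add_left, tt_add_left]
  rw [e] at h1
  have h2 := (h1.sub (hA y hy) (by simp [tt_mul hs, hy]) (by
    simp [Matrix.add_mul, tt_mul hs, hy, hz, hyz, hzy])).sub (hA z hz) (by simp [tt_mul hs, hz]) (by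
    simp [Matrix.add_mul, Matrix.sub_mul, tt_mul hs, hy, hz, hyz, hzy])
  convert h2 using 1
  abel

theorem Ctx.bb_of_aa (h : Ctx q K) (hF : Fintype.card F = q ^ 2) (hb : 2 ≤ b) {A : Matrix α α F}
    (hA : A ∈ AA q K) : A ∈ BB q K := by
  intro y z hy hz hyz
  have h1 := aa_short hs hF hA hy hz hyz
  rwa [h.aa_skew hs hF hb hA, tt_neg_mid, sub_neg_eq_add]

theorem bb_add (hF : Fintype.card F = q ^ 2) {A B : Matrix α α F} (hA : A ∈ BB q K)
    (hB : B ∈ BB q K) : A + B ∈ BB q K := by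
  intro y z hy hz hyz
  have hzy := (hermForm_eq_zero_comm hF).1 hyz
  have h1 := (hA y z hy hz hyz).add (hB y z hy hz hyz) (by
    simp [Matrix.mul_sub, Matrix.sub_mul, tt_mul hs, hy, hz, hyz, hzy])
  convert h1 using 1
  rw [tt_add_mid, Matrix.conjTranspose_add, tt_add_mid]
  abel

theorem bb_neg (hF : Fintype.card F = q ^ 2) {A : Matrix α α F} (hA : A ∈ BB q K) :
    -A ∈ BB q K := by
  intro y z hy hz hyz
  have hzy := (hermForm_eq_zero_comm hF).1 hyz
  have h1 := (hA y z hy hz hyz).neg (by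
    simp [Matrix.mul_sub, Matrix.sub_mul, tt_mul hs, hy, hz, hyz, hzy])
  convert h1 using 1
  rw [tt_neg_mid, Matrix.conjTranspose_neg, tt_neg_mid]
  abel

theorem bb_smul (hF : Fintype.card F = q ^ 2) (c : F) {A : Matrix α α F} (hA : A ∈ BB q K) :
    c • A ∈ BB q K := by
  intro y z hy hz hyz
  have h1 := hA (c • y) z (by rw [hermForm_smul_left, hermForm_smul_right, hy]; ring) hz (by
    rw [hermForm_smul_left, hyz, mul_zero])
  convert h1 using 1
  rw [tt_smul_mid, Matrix.conjTranspose_smul, tt_smul_mid, tt_smul_left, tt_smul_right hs, hs]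

theorem bb_conjT (hF : Fintype.card F = q ^ 2) {A : Matrix α α F} (hA : A ∈ BB q K) :
    Aᴴ ∈ BB q K := by
  intro y z hy hz hyz
  have hzy := (hermForm_eq_zero_comm hF).1 hyz
  have h1 := (hA z y hz hy hzy).neg (by
    simp [Matrix.mul_sub, Matrix.sub_mul, tt_mul hs, hy, hz, hyz, hzy])
  convert h1 using 1
  rw [Matrix.conjTranspose_conjTranspose]
  abel

/-- The commutator relation. -/
theorem Ctx.bb_prod (h : Ctx q K) (hF : Fintype.card F = q ^ 2) (hb : 4 ≤ b)
    {A₁ A₂ B : Matrix α α F} (hA₁ : A₁ ∈ BB q K) (hA₂ : A₂ ∈ BB q K) (hB : B ∈ AA q K) :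
    A₁ * B * A₂ᴴ + A₂ * B * A₁ᴴ ∈ AA q K := by
  intro x hx
  obtain ⟨y, z, hyz, hyx, hzx⟩ := exists_hyp_perp hF hb hx
  have hxy := (hermForm_eq_zero_comm hF).1 hyx
  have hxz := (hermForm_eq_zero_comm hF).1 hzx
  obtain ⟨hyy, hzz, hyz1⟩ := hyz
  have key : ∀ A ∈ BB q K, KN K (tt y (B * Aᴴ) x + tt x (A * B) y + tt x (A * B * Aᴴ) x) := by
    intro A hA
    have h1 := hA x z hx hzz hxz
    have h2 := h.kn_conj h1 (hB y hyy)
    have h3 : (1 + (tt x A z - tt z Aᴴ x)) * io α y = io α y + io α x * A := by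
      rw [Matrix.add_mul, Matrix.one_mul, Matrix.sub_mul, tt_mul_io hs, tt_mul_io hs, hyz1, hyx,
        one_smul, zero_smul, sub_zero]
    have h4 : (1 + (tt x A z - tt z Aᴴ x)) * tt y B y * (1 + (tt x A z - tt z Aᴴ x))ᴴ =
        tt y B y + (tt y (B * Aᴴ) x + tt x (A * B) y + tt x (A * B * Aᴴ) x) := by
      unfold tt at h3 ⊢
      rw [← Matrix.mul_assoc, ← Matrix.mul_assoc, h3, Matrix.mul_assoc _ _ (_)ᴴ,
        ← Matrix.conjTranspose_mul, h3, Matrix.conjTranspose_add, Matrix.conjTranspose_mul]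
      simp only [Matrix.add_mul, Matrix.mul_add, Matrix.mul_assoc]
      abel
    rw [h4] at h2
    have h5 := h2.sub (hB y hyy) (by simp [tt_mul hs, hyy]) (by
      simp [Matrix.add_mul, tt_mul hs, hyy, hyx, hxy])
    convert h5 using 1
    abel
  have k1 := key A₁ hA₁
  have k2 := key A₂ hA₂
  have k3 := key (A₁ + A₂) (bb_add hs hF hA₁ hA₂)
  have h6 := (k3.sub k1 (by simp [Matrix.add_mul, Matrix.mul_add, tt_mul hs, hyy, hx, hyx, hxy]) (by
    simp [Matrix.add_mul, Matrix.mul_add, tt_mul hs, hyy, hx, hyx, hxy])).sub k2 (by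
    simp [Matrix.add_mul, Matrix.mul_add, tt_mul hs, hyy, hx, hyx, hxy]) (by
    simp [Matrix.add_mul, Matrix.mul_add, Matrix.sub_mul, tt_mul hs, hyy, hx, hyx, hxy])
  convert h6 using 1
  simp only [Matrix.conjTranspose_add, Matrix.mul_add, Matrix.add_mul, tt_add_mid]
  abel

theorem Ctx.bb_one (h : Ctx q K) (hF : Fintype.card F = q ^ 2) (hb : 2 ≤ b) :
    (1 : Matrix α α F) ∈ BB q K := by
  obtain ⟨c, hc0, hc⟩ := exists_skew hF
  have h1 := bb_smul hs hF c⁻¹ (h.bb_of_aa hs hF hb (h.scalar_mem hs hF hc))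
  rwa [smul_smul, inv_mul_cancel₀ hc0, one_smul] at h1

theorem Ctx.bb_mul_conjT (h : Ctx q K) (hF : Fintype.card F = q ^ 2) (hb : 4 ≤ b)
    {A₁ A₂ : Matrix α α F} (hA₁ : A₁ ∈ BB q K) (hA₂ : A₂ ∈ BB q K) : A₁ * A₂ᴴ ∈ BB q K := by
  obtain ⟨c, hc0, hc⟩ := exists_skew hF
  obtain ⟨l, hl⟩ := exists_pow_q_ne (F := F) hF
  have hcA := h.scalar_mem hs hF hc
  have h1 := h.bb_of_aa hs hF (by omega) (h.bb_prod hs hF hb hA₁ hA₂ hcA)
  have h2 := h.bb_of_aa hs hF (by omega) (h.bb_prod hs hF hb (bb_smul hs hF l hA₁) hA₂ hcA)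
  have h3 := bb_add hs hF (bb_smul hs hF (l ^ q) h1) (bb_neg hs hF h2)
  have h4 := bb_smul hs hF (((l ^ q - l) * c)⁻¹) h3
  have hne : (l ^ q - l) * c ≠ 0 := mul_ne_zero (sub_ne_zero.2 hl) hc0
  convert h4 using 1
  simp only [Matrix.mul_smul, Matrix.smul_mul, Matrix.mul_one, Matrix.conjTranspose_smul, hs]
  have : l ^ q • (c • (A₁ * A₂ᴴ) + c • (A₂ * A₁ᴴ)) + -(c • l • (A₁ * A₂ᴴ) + l ^ q • c • (A₂ * A₁ᴴ)) =
      ((l ^ q - l) * c) • (A₁ * A₂ᴴ) := by module
  rw [this, smul_smul, inv_mul_cancel₀ hne, one_smul]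

theorem Ctx.bb_mul (h : Ctx q K) (hF : Fintype.card F = q ^ 2) (hb : 4 ≤ b)
    {A₁ A₂ : Matrix α α F} (hA₁ : A₁ ∈ BB q K) (hA₂ : A₂ ∈ BB q K) : A₁ * A₂ ∈ BB q K := by
  have := h.bb_mul_conjT hs hF hb hA₁ (bb_conjT hs hF hA₂)
  rwa [Matrix.conjTranspose_conjTranspose] at this

theorem Ctx.aa_of_bb (h : Ctx q K) (hF : Fintype.card F = q ^ 2) (hb : 4 ≤ b)
    {S : Matrix α α F} (hS : S ∈ BB q K) (hSs : Sᴴ = -S) : S ∈ AA q K := by
  obtain ⟨c, hc0, hc⟩ := exists_skew hF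
  obtain ⟨m, hm⟩ := exists_trace_eq hF (c := 1) (one_pow q)
  have hcA := h.scalar_mem hs hF hc
  have h1 := h.bb_prod hs hF hb (bb_smul hs hF c⁻¹ hS)
    (bb_smul hs hF m (h.bb_one hs hF (by omega))) hcA
  convert h1 using 1
  have e1 : c⁻¹ • S * c • (1 : Matrix α α F) * (m • (1 : Matrix α α F))ᴴ = (m ^ q) • S := by
    rw [Matrix.conjTranspose_smul, Matrix.conjTranspose_one, hs, Matrix.mul_smul, Matrix.mul_smul,
      Matrix.mul_one, Matrix.mul_one, smul_smul, smul_smul, mul_assoc, mul_inv_cancel₀ hc0, mul_one]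
  have e2 : m • (1 : Matrix α α F) * c • (1 : Matrix α α F) * (c⁻¹ • S)ᴴ = m • S := by
    have e3 : m • (1 : Matrix α α F) * c • (1 : Matrix α α F) * (c⁻¹ • S)ᴴ =
        -(m * c * (c⁻¹) ^ q) • S := by
      simp only [Matrix.conjTranspose_smul, hs, hSs, Matrix.mul_smul, Matrix.mul_one,
        Matrix.smul_mul, Matrix.one_mul, Matrix.mul_neg]
      module
    rw [e3, inv_pow, hc]
    congr 1
    field_simp
  rw [e1, e2, ← add_smul, add_comm, hm, one_smul]

end Cfsg.Agent.UTP
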