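import Mathlib
import Cfsg.Agent.UTP.Root

set_option autoImplicit false
set_option linter.unusedSectionVars false
set_option linter.unusedVariables false

/-!
If all root coefficients occur, then `K` contains all transvections.
-/

namespace Cfsg.Agent.UTP

open scoped Matrix
open Cfsg.Agent.Uni Module
open Matrix (GeneralLinearGroup)

variable {F : Type*} [Field F] [Fintype F] [StarRing F] {q b : ℕ}
variable {α : Type*} [Fintype α] [DecidableEq α]
variable {K : Subgroup (GL (α × Fin b) F)}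

/-- The rank one matrix. -/
def rk {κ : Type*} (v : κ → F) : Matrix κ κ F := Matrix.vecMulVec v (star v)

theorem rk_conj {κ : Type*} [Fintype κ] (G : Matrix κ κ F) (v : κ → F) :
    G * rk v * Gᴴ = rk (G *ᵥ v) := by
  unfold rk
  rw [Matrix.mul_vecMulVec, Matrix.vecMulVec_mul, Matrix.star_mulVec]

/-- Directions of transvections in `K`. -/
def XX (q : ℕ) (K : Subgroup (GL (α × Fin b) F)) : Set (α × Fin b → F) :=
  {v | ∀ c : F, c ^ q = -c → KN K (c • rk v)}

theorem Ctx.xx_conj (h : Ctx q K) {G : Matrix (α × Fin b) (α × Fin b) F} (hG : InK K G)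
    {v : α × Fin b → F} (hv : v ∈ XX q K) : G *ᵥ v ∈ XX q K := by
  intro c hc
  have h1 := h.kn_conj hG (hv c hc)
  rwa [Matrix.mul_smul, Matrix.smul_mul, rk_conj] at h1

theorem Ctx.xx_conj_iff (h : Ctx q K) {G : Matrix (α × Fin b) (α × Fin b) F} (hG : InK K G)
    {v : α × Fin b → F} (hv : G *ᵥ v ∈ XX q K) : v ∈ XX q K := by
  have h1 := h.xx_conj (h.conjT_mem hG) hv
  rwa [Matrix.mulVec_mulVec, h.conjT_mul hG, Matrix.one_mulVec] at h1

theorem tt_rk (w : Fin b → F) (u : α → F) (c : F) : tt w (c • rk u) w = c • rk (io α w *ᵥ u) := by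
  unfold tt rk
  rw [Matrix.mul_smul, Matrix.smul_mul, Matrix.mul_vecMulVec, Matrix.vecMulVec_mul, Matrix.star_mulVec]

theorem ip_pres {G : Matrix (α × Fin b) (α × Fin b) F} (hG : Gᴴ * G = 1) (v : α × Fin b → F) :
    (G *ᵥ v) ⬝ᵥ star (G *ᵥ v) = v ⬝ᵥ star v := by
  rw [Matrix.star_mulVec, dotProduct_comm, ← Matrix.dotProduct_mulVec, Matrix.mulVec_mulVec, hG,
    Matrix.one_mulVec, dotProduct_comm]

variable (hs : ∀ x : F, star x = x ^ q)
include hs

theorem io_ip (w w' : Fin b → F) (u u' : α → F) :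
    (io α w *ᵥ u) ⬝ᵥ star (io α w' *ᵥ u') = hermForm b F q w w' * (u ⬝ᵥ star u') := by
  rw [Matrix.star_mulVec, dotProduct_comm, ← Matrix.dotProduct_mulVec, Matrix.mulVec_mulVec,
    ioH_io hs, Matrix.smul_mulVec, Matrix.one_mulVec, dotProduct_smul, smul_eq_mul,
    dotProduct_comm (star u')]

theorem exists_dot_one (hF : Fintype.card F = q ^ 2) {u : α → F} (hu : u ≠ 0) :
    ∃ x : α → F, u ⬝ᵥ star x = 1 := by
  obtain ⟨i, hi⟩ : ∃ i, u i ≠ 0 := by
    by_contra hcon
    push Not at hcon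
    exact hu (funext hcon)
  refine ⟨Pi.single i (((u i)⁻¹) ^ q), ?_⟩
  rw [dotProduct, Finset.sum_eq_single i]
  · rw [Pi.star_apply, Pi.single_eq_same, hs, pow_q_pow_q hF, mul_inv_cancel₀ hi]
  · intro j _ hj
    rw [Pi.star_apply, Pi.single_eq_of_ne hj, star_zero, mul_zero]
  · intro h; exact absurd (Finset.mem_univ _) h

omit hs in
theorem vm_mulVec {κ : Type*} [Fintype κ] (x y z : κ → F) :
    Matrix.vecMulVec x (star y) *ᵥ z = (z ⬝ᵥ star y) • x := by
  funext i
  simp only [Matrix.mulVec, Matrix.vecMulVec_apply, dotProduct, Pi.smul_apply, smul_eq_mul,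
    Finset.sum_mul]
  exact Finset.sum_congr rfl fun j _ => by ring

/-- A skew-Hermitian matrix with a prescribed value. -/
theorem exists_skew_matrix (hF : Fintype.card F = q ^ 2) {u u' : α → F} (hu : u ≠ 0)
    (h : u ⬝ᵥ star u' + u' ⬝ᵥ star u = 0) : ∃ A : Matrix α α F, Aᴴ = -A ∧ A *ᵥ u = u' := by
  obtain ⟨x, hx⟩ := exists_dot_one hs hF hu
  have hstar : star (u ⬝ᵥ star u') = u' ⬝ᵥ star u := (Matrix.dotProduct_star u' u).symm
  have hsk : star (u ⬝ᵥ star u') = -(u ⬝ᵥ star u') := by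
    rw [hstar]
    exact eq_neg_of_add_eq_zero_right h
  refine ⟨Matrix.vecMulVec u' (star x) - Matrix.vecMulVec x (star u') +
    (u ⬝ᵥ star u') • Matrix.vecMulVec x (star x), ?_, ?_⟩
  · rw [Matrix.conjTranspose_add, Matrix.conjTranspose_sub, Matrix.conjTranspose_smul,
      Matrix.conjTranspose_vecMulVec, Matrix.conjTranspose_vecMulVec, Matrix.conjTranspose_vecMulVec,
      star_star, star_star, hsk]
    module
  · rw [Matrix.add_mulVec, Matrix.sub_mulVec, Matrix.smul_mulVec, vm_mulVec, vm_mulVec, vm_mulVec, hx]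
    module

/-- All transvections. -/
theorem Ctx.xx_all (h : Ctx q K) (hF : Fintype.card F = q ^ 2) (hb : 4 ≤ b)
    (hall : ∀ A : Matrix α α F, A ∈ BB q K) {v : α × Fin b → F} (hv : v ⬝ᵥ star v = 0) :
    v ∈ XX q K := by
  by_cases hv0 : v = 0
  · subst hv0
    intro c hc
    have : rk (0 : α × Fin b → F) = 0 := by
      unfold rk
      rw [Matrix.zero_vecMulVec]
    rw [this, smul_zero]
    exact KN.zero
  -- pure vectors
  have hpure : ∀ (w : Fin b → F) (u : α → F), hermForm b F q w w = 0 → io α w *ᵥ u ∈ XX q K := by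
    intro w u hw c hc
    rw [← tt_rk]
    apply h.aa_of_bb hs hF hb (hall _) ?_ w hw
    unfold rk
    rw [Matrix.conjTranspose_smul, Matrix.conjTranspose_vecMulVec, star_star, hs, hc]
    module
  -- an isotropic vector not orthogonal to `v`
  obtain ⟨w', hw', hw'v⟩ : ∃ w' : Fin b → F, hermForm b F q w' w' = 0 ∧ (io α w')ᴴ *ᵥ v ≠ 0 := by
    by_contra hcon
    push Not at hcon
    apply hv0
    let T : Submodule F (Fin b → F) :=
      { carrier := {x | (io α x)ᴴ *ᵥ v = 0}
        zero_mem' := by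
          change (io α 0)ᴴ *ᵥ v = 0
          rw [io_zero, Matrix.conjTranspose_zero, Matrix.zero_mulVec]
        add_mem' := by
          intro x y hx hy
          change (io α (x + y))ᴴ *ᵥ v = 0
          rw [io_add, Matrix.conjTranspose_add, Matrix.add_mulVec, hx, hy, add_zero]
        smul_mem' := by
          intro c x hx
          change (io α (c • x))ᴴ *ᵥ v = 0
          rw [io_smul, Matrix.conjTranspose_smul, Matrix.smul_mulVec, hx, smul_zero] }
    have hT : ∀ x, x ∈ T := top_le_of_isotropic hF (by omega) hcon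
    funext ⟨i, j⟩
    have h1 := congrFun (hT (Pi.single j 1)) i
    rw [Matrix.mulVec, dotProduct, Finset.sum_eq_single (i, j)] at h1
    · simpa [io] using h1
    · rintro ⟨i', j'⟩ _ hne
      simp only [io, Matrix.conjTranspose_apply, Matrix.of_apply]
      by_cases h1 : i' = i
      · subst h1
        have : j' ≠ j := fun h => hne (by rw [h])
        simp [this]
      · simp [h1]
    · intro h; exact absurd (Finset.mem_univ _) h
  have hw'0 : w' ≠ 0 := by
    rintro rfl
    rw [io_zero, Matrix.conjTranspose_zero, Matrix.zero_mulVec] at hw'v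
    exact hw'v rfl
  obtain ⟨w, hww⟩ := exists_hyp' hF hw'0 hw'
  have hH : Hyp q w w' := hww.symm hF
  obtain ⟨u₁, hu₁⟩ : ∃ u₁, u₁ = (io α w')ᴴ *ᵥ v := ⟨_, rfl⟩
  rw [← hu₁] at hw'v
  obtain ⟨x, hx⟩ := exists_dot_one hs hF hw'v
  -- decomposition
  let C : AddSubmonoid (α × Fin b → F) := AddSubmonoid.closure
    {t | ∃ (y : Fin b → F) (z : α → F), hermForm b F q y y = 0 ∧ hermForm b F q y w = 0 ∧
      hermForm b F q y w' = 0 ∧ t = io α y *ᵥ z}
  have hC : ∀ y ∈ perp q (Submodule.span F {w, w'}), ∀ z : α → F, io α y *ᵥ z ∈ C := by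
    let T : Submodule F (Fin b → F) :=
      { carrier := {y | ∀ z : α → F, io α y *ᵥ z ∈ C}
        zero_mem' := by
          intro z
          rw [io_zero, Matrix.zero_mulVec]
          exact C.zero_mem
        add_mem' := by
          intro y y' hy hy' z
          rw [io_add, Matrix.add_mulVec]
          exact C.add_mem (hy z) (hy' z)
        smul_mem' := by
          intro c y hy z
          rw [io_smul, Matrix.smul_mulVec, ← Matrix.mulVec_smul]
          exact hy _ }
    have hle : perp q (Submodule.span F {w, w'}) ≤ T := by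
      apply nd_le_of_isotropic hF ((hH.nd hF).perp hF)
      · rw [hH.finrank_perp hF]; omega
      · intro y hy hyy z
        obtain ⟨h1, h2⟩ := (Hyp.mem_perp_iff hF).1 hy
        exact AddSubmonoid.subset_closure ⟨y, z, hyy, h1, h2, rfl⟩
    exact fun y hy => hle hy
  have hdec : ∀ y : α × Fin b → F, ∃ u₁ u₂ : α → F, ∃ t ∈ C, y = io α w *ᵥ u₁ + io α w' *ᵥ u₂ + t := by
    let M : AddSubmonoid (α × Fin b → F) :=
      { carrier := {y | ∃ u₁ u₂ : α → F, ∃ t ∈ C, y = io α w *ᵥ u₁ + io α w' *ᵥ u₂ + t}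
        zero_mem' := ⟨0, 0, 0, C.zero_mem, by simp⟩
        add_mem' := by
          rintro y y' ⟨a1, a2, t, ht, rfl⟩ ⟨a1', a2', t', ht', rfl⟩
          refine ⟨a1 + a1', a2 + a2', t + t', C.add_mem ht ht', ?_⟩
          rw [Matrix.mulVec_add, Matrix.mulVec_add]
          abel }
    have hM : ∀ (y : Fin b → F) (z : α → F), io α y *ᵥ z ∈ M := by
      intro y z
      obtain ⟨p, hp, t, ht, rfl⟩ := (hH.nd hF).exists_add hF y
      obtain ⟨c1, c2, rfl⟩ := Submodule.mem_span_pair.1 hp
      refine ⟨c1 • z, c2 • z, io α t *ᵥ z, hC t ht z, ?_⟩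
      rw [io_add, io_add, io_smul, io_smul, Matrix.add_mulVec, Matrix.add_mulVec, Matrix.smul_mulVec,
        Matrix.smul_mulVec, Matrix.mulVec_smul, Matrix.mulVec_smul]
    intro y
    have : y = ∑ j : Fin b, io α (Pi.single j 1 : Fin b → F) *ᵥ (fun i => y (i, j)) := by
      funext ⟨i, j⟩
      rw [Finset.sum_apply, Finset.sum_eq_single j]
      · rw [Matrix.mulVec, dotProduct, Finset.sum_eq_single i]
        · simp [io]
        · intro k _ hk
          simp [io, Ne.symm hk]
        · intro h; exact absurd (Finset.mem_univ _) h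
      · intro k _ hk
        rw [Matrix.mulVec, dotProduct]
        apply Finset.sum_eq_zero
        intro l _
        simp [io, Pi.single_eq_of_ne hk.symm]
      · intro h; exact absurd (Finset.mem_univ _) h
    rw [this]
    exact M.sum_mem fun j _ => hM _ _
  -- moving by elements of `K`
  have hmove : ∀ t ∈ C, (io α w')ᴴ *ᵥ t = 0 ∧ ∀ y : α × Fin b → F, (io α w')ᴴ *ᵥ y = u₁ →
      ∃ G, InK K G ∧ ∃ a : α → F, G *ᵥ y = y - t + io α w' *ᵥ a := by
    intro t ht
    induction ht using AddSubmonoid.closure_induction with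
    | mem t ht =>
      obtain ⟨y, z, hyy, hyw, hyw', rfl⟩ := ht
      have hw'y := (hermForm_eq_zero_comm hF).1 hyw'
      refine ⟨?_, ?_⟩
      · rw [Matrix.mulVec_mulVec, ioH_io hs, hyw', zero_smul, Matrix.zero_mulVec]
      · intro v' hv'
        refine ⟨_, (hall (Matrix.vecMulVec x (star z))) w' y hw' hyy hw'y,
          Matrix.vecMulVec x (star z) *ᵥ ((io α y)ᴴ *ᵥ v'), ?_⟩
        unfold tt
        rw [Matrix.add_mulVec, Matrix.one_mulVec, Matrix.sub_mulVec, Matrix.conjTranspose_vecMulVec,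
          star_star, ← Matrix.mulVec_mulVec, ← Matrix.mulVec_mulVec, ← Matrix.mulVec_mulVec,
          ← Matrix.mulVec_mulVec, hv', vm_mulVec z x u₁, hx, one_smul]
        abel
    | zero =>
      refine ⟨Matrix.mulVec_zero _, fun y _ => ⟨1, InK.one, 0, ?_⟩⟩
      rw [Matrix.one_mulVec, Matrix.mulVec_zero, sub_zero, add_zero]
    | add t t' ht ht' ih ih' =>
      refine ⟨by rw [Matrix.mulVec_add, ih.1, ih'.1, add_zero], fun y hy => ?_⟩
      obtain ⟨G, hG, a, ha⟩ := ih.2 y hy
      obtain ⟨G', hG', a', ha'⟩ := ih'.2 (G *ᵥ y) (by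
        rw [ha, Matrix.mulVec_add, Matrix.mulVec_sub, hy, ih.1, sub_zero, Matrix.mulVec_mulVec,
          ioH_io hs, hw', zero_smul, Matrix.zero_mulVec, add_zero])
      refine ⟨G' * G, hG'.mul hG, a + a', ?_⟩
      rw [← Matrix.mulVec_mulVec, ha', ha, Matrix.mulVec_add]
      abel
  obtain ⟨a1, a2, t, ht, hvt⟩ := hdec v
  have ha1 : a1 = u₁ := by
    rw [hu₁, hvt, Matrix.mulVec_add, Matrix.mulVec_add, Matrix.mulVec_mulVec, Matrix.mulVec_mulVec,
      ioH_io hs, ioH_io hs, hH.2.2, hw', (hmove t ht).1, one_smul, zero_smul, Matrix.one_mulVec,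
      Matrix.zero_mulVec, add_zero, add_zero]
  obtain ⟨G, hG, a, ha⟩ := (hmove t ht).2 v hu₁.symm
  have hGv : G *ᵥ v = io α w *ᵥ u₁ + io α w' *ᵥ (a2 + a) := by
    rw [ha]
    conv_lhs => rw [hvt]
    rw [ha1, Matrix.mulVec_add]
    abel
  apply h.xx_conj_iff hG
  have hiso := ip_pres (h.conjT_mul hG) v
  rw [hv, hGv, star_add, dotProduct_add, add_dotProduct, add_dotProduct, io_ip hs, io_ip hs,
    io_ip hs, io_ip hs, hH.1, hH.2.1, hH.2.2, hww.2.2] at hiso
  obtain ⟨A, hAs, hAu⟩ := exists_skew_matrix hs hF (u' := a2 + a) hw'v (by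
    linear_combination hiso)
  have hGA := h.aa_of_bb hs hF hb (hall A) hAs w' hw'
  have h1 := h.xx_conj hGA (hpure w u₁ hH.1)
  have h2 : (1 + tt w' A w') *ᵥ (io α w *ᵥ u₁) = io α w *ᵥ u₁ + io α w' *ᵥ (a2 + a) := by
    rw [Matrix.add_mulVec, Matrix.one_mulVec, Matrix.mulVec_mulVec, tt_mul_io hs, hH.2.2, one_smul,
      ← Matrix.mulVec_mulVec, hAu]
  rw [hGv, ← h2]
  exact h1

end Cfsg.Agent.UTP
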