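import Mathlib
import Cfsg.Agent.UTP.Root

set_option autoImplicit false
set_option linter.unusedSectionVars false
set_option linter.unusedVariables false

/-!
Elements of `K` normalising `U ⊗ w` are pure, when the root coefficients are scalar.
-/

namespace Cfsg.Agent.UTP

open scoped Matrix
open Cfsg.Agent.Uni Module
open Matrix (GeneralLinearGroup)

variable {F : Type*} [Field F] [Fintype F] [StarRing F] {q b : ℕ}
variable {α : Type*} [Fintype α] [DecidableEq α]
variable {K : Subgroup (GL (α × Fin b) F)}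

/-- The root coefficients are scalar. -/
def Scal (q : ℕ) (K : Subgroup (GL (α × Fin b) F)) : Prop := ∀ A ∈ AA q K, ∃ c : F, A = c • 1

/-- Blocks determine a matrix. -/
theorem exists_io_of_blocks {S : Matrix α α F} {X : Matrix (α × Fin b) α F}
    (h : ∀ x : Fin b → F, ∃ c : F, (io α x)ᴴ * X = c • S) : ∃ w : Fin b → F, X = io α w * S := by
  choose c hc using h
  refine ⟨fun j => c (Pi.single j 1), ?_⟩
  ext ⟨i, j⟩ k
  have h1 := congrFun (congrFun (hc (Pi.single j 1)) i) k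
  have h2 : ((io α (Pi.single j (1 : F) : Fin b → F))ᴴ * X) i k = X (i, j) k := by
    rw [Matrix.mul_apply, Finset.sum_eq_single (i, j)]
    · simp [io]
    · rintro ⟨i', j'⟩ _ hne
      simp only [io, Matrix.conjTranspose_apply, Matrix.of_apply]
      by_cases h1 : i' = i
      · subst h1
        have : j' ≠ j := fun h => hne (by rw [h])
        simp [this]
      · simp [h1]
    · intro h; exact absurd (Finset.mem_univ _) h
  have h3 : (io α (fun j => c (Pi.single j 1)) * S) (i, j) k = c (Pi.single j 1) * S i k := by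
    rw [Matrix.mul_apply, Finset.sum_eq_single i]
    · simp [io]
    · intro l _ hl
      simp [io, Ne.symm hl]
    · intro h; exact absurd (Finset.mem_univ _) h
  rw [h3, ← h2, h1]
  rfl

variable (hs : ∀ x : F, star x = x ^ q)
include hs

theorem io_conjT_zero (hF : Fintype.card F = q ^ 2) {x y : Fin b → F} (h : hermForm b F q x y = 0) :
    (io α y)ᴴ * io α x = 0 := by
  rw [ioH_io hs, h, zero_smul]

theorem Ctx.scal_of_one (h : Ctx q K) (hsc : Scal q K) (hF : Fintype.card F = q ^ 2) (hb : 4 ≤ b)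
    {A : Matrix α α F} {w : Fin b → F} (hw0 : w ≠ 0) (hw : hermForm b F q w w = 0)
    (hA : KN K (tt w A w)) : ∃ c : F, A = c • 1 :=
  hsc A (h.aa_of_one hs hF (by omega) hw0 hw hA)

theorem Ctx.lemB (h : Ctx q K) (hsc : Scal q K) (hF : Fintype.card F = q ^ 2) (hb : 4 ≤ b)
    {r : Matrix (α × Fin b) (α × Fin b) F} (hr : InK K r) {y z : Fin b → F} (hz0 : z ≠ 0)
    (hz : hermForm b F q z z = 0) (hy : hermForm b F q y y = 0) (hyz : hermForm b F q y z = 0)
    {φ : Matrix α α F} (hrz : r * io α z = io α z) (hry : r * io α y = io α y + io α z * φ) :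
    ∃ c : F, φ = c • 1 := by
  have hzy := (hermForm_eq_zero_comm hF).1 hyz
  have hone := h.bb_one (α := α) hs hF (by omega)
  have key : ∀ m : F, ∃ c : F, m • φᴴ - m ^ q • φ = c • 1 := by
    intro m
    have h1 := bb_smul hs hF m hone z y hz hy hzy
    have h2 := h.kn_conj hr h1
    have e1 : r * (tt z (m • 1) y - tt y (m • (1 : Matrix α α F))ᴴ z) * rᴴ =
        (tt z (m • 1) y - tt y (m • (1 : Matrix α α F))ᴴ z) + tt z (m • φᴴ - m ^ q • φ) z := by
      have e2 : r * tt z (m • (1 : Matrix α α F)) y * rᴴ = tt z (m • 1) y + tt z (m • φᴴ) z := by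
        unfold tt
        rw [← Matrix.mul_assoc, ← Matrix.mul_assoc, hrz, Matrix.mul_assoc _ _ rᴴ,
          ← Matrix.conjTranspose_mul, hry, Matrix.conjTranspose_add, Matrix.conjTranspose_mul,
          Matrix.mul_add]
        congr 1
        simp only [Matrix.mul_smul, Matrix.smul_mul, Matrix.mul_one, Matrix.mul_assoc]
      have e3 : r * tt y (m • (1 : Matrix α α F))ᴴ z * rᴴ = tt y (m • 1)ᴴ z + tt z (m ^ q • φ) z := by
        unfold tt
        rw [← Matrix.mul_assoc, ← Matrix.mul_assoc, hry, Matrix.mul_assoc _ _ rᴴ,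
          ← Matrix.conjTranspose_mul, hrz, Matrix.add_mul, Matrix.add_mul]
        congr 1
        simp only [Matrix.conjTranspose_smul, Matrix.conjTranspose_one, hs, Matrix.mul_smul,
          Matrix.smul_mul, Matrix.mul_one, Matrix.mul_assoc]
      rw [Matrix.mul_sub, Matrix.sub_mul, e2, e3, tt_sub_mid]
      abel
    rw [e1] at h2
    have h3 := h2.sub h1 (by
      simp [Matrix.mul_sub, Matrix.sub_mul, tt_mul hs, hy, hz, hyz, hzy]) (by
      simp [Matrix.mul_sub, Matrix.sub_mul, Matrix.add_mul, tt_mul hs, hy, hz, hyz, hzy])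
    rw [add_sub_cancel_left] at h3
    exact h.scal_of_one hs hsc hF hb hz0 hz h3
  obtain ⟨l, hl⟩ := exists_pow_q_ne (F := F) hF
  obtain ⟨c1, h1⟩ := key 1
  obtain ⟨c2, h2⟩ := key l
  rw [one_smul, one_pow, one_smul] at h1
  have hne : l ^ q - l ≠ 0 := sub_ne_zero.2 hl
  refine ⟨(l ^ q - l)⁻¹ * (l * c1 - c2), ?_⟩
  have h3 : (l ^ q - l) • φ = (l * c1 - c2) • 1 := by
    have : (l ^ q - l) • φ = l • (φᴴ - φ) - (l • φᴴ - l ^ q • φ) := by module
    rw [this, h1, h2]
    module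
  rw [mul_smul, ← h3, smul_smul, inv_mul_cancel₀ hne, one_smul]

/-- Basic facts about an element normalising `U ⊗ z`. -/
theorem Ctx.norm_basic [Nonempty α] (h : Ctx q K) (hsc : Scal q K) (hF : Fintype.card F = q ^ 2) (hb : 4 ≤ b)
    {r : Matrix (α × Fin b) (α × Fin b) F} (hr : InK K r) {z : Fin b → F} (hz0 : z ≠ 0)
    (hz : hermForm b F q z z = 0) {S : Matrix α α F} (hrz : r * io α z = io α z * S) :
    ∃ m : F, m ≠ 0 ∧ m ^ q = m ∧ S * Sᴴ = m • 1 ∧ Sᴴ * S = m • 1 ∧
      rᴴ * io α z = io α z * (m⁻¹ • Sᴴ) := by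
  have htriv : (1 : Matrix α α F) ≠ 0 := one_ne_zero
  obtain ⟨c, hc0, hc⟩ := exists_skew hF
  obtain ⟨v, hv⟩ := exists_hyp' hF hz0 hz
  have hrr := h.conjT_mul hr
  -- `S` is invertible
  have hL : ((io α v)ᴴ * rᴴ * io α z) * S = 1 := by
    calc ((io α v)ᴴ * rᴴ * io α z) * S = (io α v)ᴴ * rᴴ * (io α z * S) := by rw [Matrix.mul_assoc]
      _ = (io α v)ᴴ * ((rᴴ * r) * io α z) := by
          rw [← hrz]; simp only [Matrix.mul_assoc]
      _ = 1 := by rw [hrr, Matrix.one_mul, ioH_io hs, hv.2.2, one_smul]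
  -- the scalar
  have h1 := h.kn_conj hr (h.scalar_mem (α := α) hs hF hc z hz)
  have e1 : r * tt z (c • (1 : Matrix α α F)) z * rᴴ = tt z (c • (S * Sᴴ)) z := by
    unfold tt
    rw [← Matrix.mul_assoc, ← Matrix.mul_assoc, hrz, Matrix.mul_assoc _ _ rᴴ,
      ← Matrix.conjTranspose_mul, hrz, Matrix.conjTranspose_mul]
    simp only [Matrix.mul_smul, Matrix.smul_mul, Matrix.mul_one, Matrix.mul_assoc]
  rw [e1] at h1
  obtain ⟨d, hd⟩ := h.scal_of_one hs hsc hF hb hz0 hz h1
  have hm : S * Sᴴ = (c⁻¹ * d) • 1 := by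
    rw [mul_smul, ← hd, smul_smul, inv_mul_cancel₀ hc0, one_smul]
  have hSL : S * ((io α v)ᴴ * rᴴ * io α z) = 1 := by
    exact mul_eq_one_comm.1 hL
  have hm0 : c⁻¹ * d ≠ 0 := by
    intro h0
    rw [h0, zero_smul] at hm
    apply htriv
    have h2 : Sᴴ = 0 := by
      calc Sᴴ = (((io α v)ᴴ * rᴴ * io α z) * S) * Sᴴ := by rw [hL, Matrix.one_mul]
        _ = 0 := by rw [Matrix.mul_assoc, hm, Matrix.mul_zero]
    have h3 : S = 0 := by
      have := congrArg Matrix.conjTranspose h2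
      rwa [Matrix.conjTranspose_conjTranspose, Matrix.conjTranspose_zero] at this
    rw [← hL, h3, Matrix.mul_zero]
  have hmq : (c⁻¹ * d) ^ q = c⁻¹ * d := by
    have h2 := congrArg Matrix.conjTranspose hm
    rw [Matrix.conjTranspose_mul, Matrix.conjTranspose_conjTranspose, hm, Matrix.conjTranspose_smul,
      Matrix.conjTranspose_one, hs] at h2
    have h3 : (c⁻¹ * d - (c⁻¹ * d) ^ q) • (1 : Matrix α α F) = 0 := by rw [sub_smul, h2, sub_self]
    rcases smul_eq_zero.1 h3 with h4 | h4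
    · exact (sub_eq_zero.1 h4).symm
    · exact absurd h4 htriv
  have hm' : Sᴴ * S = (c⁻¹ * d) • 1 := by
    have h2 : S * ((c⁻¹ * d)⁻¹ • Sᴴ) = 1 := by
      rw [Matrix.mul_smul, hm, smul_smul, inv_mul_cancel₀ hm0, one_smul]
    have h2 := mul_eq_one_comm.1 h2
    rw [Matrix.smul_mul] at h2
    have h3 := congrArg (fun X => (c⁻¹ * d) • X) h2
    simp only [smul_smul] at h3
    rwa [mul_inv_cancel₀ hm0, one_smul] at h3
  refine ⟨c⁻¹ * d, hm0, hmq, hm, hm', ?_⟩
  calc rᴴ * io α z = rᴴ * (io α z * S) * ((c⁻¹ * d)⁻¹ • Sᴴ) := by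
        rw [Matrix.mul_assoc, Matrix.mul_assoc, Matrix.mul_smul, hm, smul_smul, inv_mul_cancel₀ hm0,
          one_smul, Matrix.mul_one]
    _ = io α z * ((c⁻¹ * d)⁻¹ • Sᴴ) := by
        rw [← hrz, ← Matrix.mul_assoc, hrr, Matrix.one_mul]

end Cfsg.Agent.UTP
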