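import Mathlib
import Cfsg.Agent.UTP.Norm

set_option autoImplicit false
set_option linter.unusedSectionVars false
set_option linter.unusedVariables false

/-!
Elements of `K` normalising `U ⊗ w` are pure, when the root coefficients are scalar.
-/

namespace Cfsg.Agent.UTP

open scoped Matrix
open Cfsg.Agent.Uni Module
open Matrix (GeneralLinearGroup)

variable {F : Type*} [Field F] [Fintype F] [StarRing F] {q b : ℕ}
variable {α : Type*} [Fintype α] [DecidableEq α] [Nonempty α]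
variable {K : Subgroup (GL (α × Fin b) F)}
variable (hs : ∀ x : F, star x = x ^ q)
include hs

/-- The conjugate of a short root element. -/
theorem Ctx.conj_short (h : Ctx q K) (hsc : Scal q K) (hF : Fintype.card F = q ^ 2) (hb : 4 ≤ b)
    {r : Matrix (α × Fin b) (α × Fin b) F} (hr : InK K r) {z : Fin b → F} (hz0 : z ≠ 0)
    (hz : hermForm b F q z z = 0) {S : Matrix α α F} (hrz : r * io α z = io α z * S)
    {y : Fin b → F} (hy : hermForm b F q y y = 0) (hyz : hermForm b F q y z = 0) (l : F) :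
    KN K (l • (io α z * S * (r * io α y)ᴴ) - l ^ q • (r * io α y * Sᴴ * (io α z)ᴴ)) := by
  have hzy := (hermForm_eq_zero_comm hF).1 hyz
  have h1 := bb_smul hs hF l (h.bb_one (α := α) hs hF (by omega)) z y hz hy hzy
  have h2 := h.kn_conj hr h1
  convert h2 using 1
  rw [Matrix.mul_sub, Matrix.sub_mul]
  congr 1
  · unfold tt
    rw [← Matrix.mul_assoc, ← Matrix.mul_assoc, hrz, Matrix.mul_assoc _ _ rᴴ,
      ← Matrix.conjTranspose_mul]
    simp only [Matrix.mul_smul, Matrix.smul_mul, Matrix.mul_one]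
  · unfold tt
    rw [← Matrix.mul_assoc, ← Matrix.mul_assoc, Matrix.mul_assoc _ _ rᴴ,
      ← Matrix.conjTranspose_mul, hrz, Matrix.conjTranspose_mul]
    simp only [Matrix.conjTranspose_smul, Matrix.conjTranspose_one, hs, Matrix.mul_smul,
      Matrix.smul_mul, Matrix.mul_one, Matrix.mul_assoc]

theorem Ctx.orth_aux (h : Ctx q K) (hsc : Scal q K) (hF : Fintype.card F = q ^ 2) (hb : 4 ≤ b)
    {r : Matrix (α × Fin b) (α × Fin b) F} (hr : InK K r) {z : Fin b → F} (hz0 : z ≠ 0)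
    (hz : hermForm b F q z z = 0) {S : Matrix α α F} (hrz : r * io α z = io α z * S)
    {y : Fin b → F} (hyz : hermForm b F q y z = 0) : (r * io α y)ᴴ * io α z = 0 := by
  obtain ⟨m, hm0, hmq, hm1, hm2, hm3⟩ := h.norm_basic hs hsc hF hb hr hz0 hz hrz
  rw [Matrix.conjTranspose_mul, Matrix.mul_assoc, hm3, ← Matrix.mul_assoc,
    io_conjT_zero hs hF ((hermForm_eq_zero_comm hF).1 hyz), Matrix.zero_mul]

/-- Blocks on the perp. -/
theorem Ctx.lemC (h : Ctx q K) (hsc : Scal q K) (hF : Fintype.card F = q ^ 2) (hb : 4 ≤ b)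
    {r : Matrix (α × Fin b) (α × Fin b) F} (hr : InK K r) {z : Fin b → F} (hz0 : z ≠ 0)
    (hz : hermForm b F q z z = 0) {S : Matrix α α F} (hrz : r * io α z = io α z * S)
    {y y' : Fin b → F} (hyz : hermForm b F q y z = 0) (hyz' : hermForm b F q y' z = 0) :
    ∃ c : F, (io α y')ᴴ * (r * io α y) = c • S := by
  obtain ⟨m, hm0, hmq, hm1, hm2, hm3⟩ := h.norm_basic hs hsc hF hb hr hz0 hz hrz
  -- isotropic case
  have hiso : ∀ y y' : Fin b → F, hermForm b F q y y = 0 → hermForm b F q y' y' = 0 →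
      hermForm b F q y z = 0 → hermForm b F q y' z = 0 → ∃ c : F, (io α y')ᴴ * (r * io α y) = c • S := by
    intro y y' hy hy' hyz hyz'
    have hG := h.conj_short hs hsc hF hb hr hz0 hz hrz hy hyz 1
    rw [one_smul, one_pow, one_smul] at hG
    have ho := h.orth_aux hs hsc hF hb hr hz0 hz hrz hyz
    obtain ⟨c, hc⟩ := h.lemB hs hsc hF hb hG hz0 hz hy' hyz'
      (φ := S * ((r * io α y)ᴴ * io α y')) (by
        rw [Matrix.add_mul, Matrix.one_mul, Matrix.sub_mul, Matrix.mul_assoc (io α z * S), ho,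
          Matrix.mul_zero, Matrix.mul_assoc _ _ (io α z), io_conjT_zero hs hF hz, Matrix.mul_zero,
          sub_zero, add_zero]) (by
        rw [Matrix.add_mul, Matrix.one_mul, Matrix.sub_mul, Matrix.mul_assoc _ _ (io α y'),
          Matrix.mul_assoc _ _ (io α y'), io_conjT_zero hs hF hyz', Matrix.mul_zero, sub_zero,
          Matrix.mul_assoc (io α z) S])
    refine ⟨(m⁻¹ * c) ^ q, ?_⟩
    have h1 : (r * io α y)ᴴ * io α y' = (m⁻¹ * c) • Sᴴ := by
      calc (r * io α y)ᴴ * io α y' = (m⁻¹ • (Sᴴ * S)) * ((r * io α y)ᴴ * io α y') := by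
            rw [hm2, smul_smul, inv_mul_cancel₀ hm0, one_smul, Matrix.one_mul]
        _ = m⁻¹ • (Sᴴ * (S * ((r * io α y)ᴴ * io α y'))) := by
            rw [Matrix.smul_mul, Matrix.mul_assoc Sᴴ S]
        _ = _ := by
            rw [hc, Matrix.mul_smul, Matrix.mul_one, smul_smul]
    have h2 := congrArg Matrix.conjTranspose h1
    rw [Matrix.conjTranspose_mul, Matrix.conjTranspose_conjTranspose, Matrix.conjTranspose_smul,
      Matrix.conjTranspose_conjTranspose, hs] at h2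
    exact h2
  -- extension in the first variable
  have hstep : ∀ y' : Fin b → F, hermForm b F q y' y' = 0 → hermForm b F q y' z = 0 →
      ∃ c : F, (io α y')ᴴ * (r * io α y) = c • S := by
    intro y' hy' hyz'
    let T : Submodule F (Fin b → F) :=
      { carrier := {x | ∃ c : F, (io α y')ᴴ * (r * io α x) = c • S}
        zero_mem' := ⟨0, by rw [io_zero, Matrix.mul_zero, Matrix.mul_zero, zero_smul]⟩
        add_mem' := by
          rintro x x' ⟨c, hc⟩ ⟨c', hc'⟩
          exact ⟨c + c', by rw [io_add, Matrix.mul_add, Matrix.mul_add, hc, hc', add_smul]⟩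
        smul_mem' := by
          rintro l x ⟨c, hc⟩
          exact ⟨l * c, by rw [io_smul, Matrix.mul_smul, Matrix.mul_smul, hc, smul_smul]⟩ }
    exact perp_le_of_isotropic hF hb hz0 hz (S := T) (fun x hx hxz => hiso x y' hx hy' hxz hyz') y hyz
  let T : Submodule F (Fin b → F) :=
    { carrier := {x | ∃ c : F, (io α x)ᴴ * (r * io α y) = c • S}
      zero_mem' := ⟨0, by rw [io_zero, Matrix.conjTranspose_zero, Matrix.zero_mul, zero_smul]⟩
      add_mem' := by
        rintro x x' ⟨c, hc⟩ ⟨c', hc'⟩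
        exact ⟨c + c', by rw [io_add, Matrix.conjTranspose_add, Matrix.add_mul, hc, hc', add_smul]⟩
      smul_mem' := by
        rintro l x ⟨c, hc⟩
        exact ⟨l ^ q * c, by
          rw [io_smul, Matrix.conjTranspose_smul, Matrix.smul_mul, hc, smul_smul, hs]⟩ }
  exact perp_le_of_isotropic hF hb hz0 hz (S := T) (fun x hx hxz => hstep x hx hxz) y' hyz'

/-- The last block. -/
theorem Ctx.lemD (h : Ctx q K) (hsc : Scal q K) (hF : Fintype.card F = q ^ 2) (hb : 4 ≤ b)
    {r : Matrix (α × Fin b) (α × Fin b) F} (hr : InK K r) {z v : Fin b → F} (hzv : Hyp q z v)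
    {S : Matrix α α F} (hrz : r * io α z = io α z * S)
    (hblk : ∀ x : Fin b → F, hermForm b F q x z = 0 → hermForm b F q x v = 0 →
      ∃ c : F, (io α x)ᴴ * (r * io α v) = c • S) :
    ∃ c : F, (io α v)ᴴ * (r * io α v) = c • S := by
  have hz0 := hzv.left_ne
  have hz := hzv.1
  have hvz := (hzv.symm hF).2.2
  obtain ⟨m, hm0, hmq, hm1, hm2, hm3⟩ := h.norm_basic hs hsc hF hb hr hz0 hz hrz
  obtain ⟨θ, hθ⟩ : ∃ θ, θ = r * io α v := ⟨_, rfl⟩
  rw [← hθ] at hblk ⊢
  obtain ⟨D, hD⟩ : ∃ D, D = (io α v)ᴴ * θ := ⟨_, rfl⟩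
  rw [← hD]
  -- the `z` block
  have hzθ : (io α z)ᴴ * θ = m⁻¹ • S := by
    have h1 := congrArg Matrix.conjTranspose hm3
    rw [Matrix.conjTranspose_mul, Matrix.conjTranspose_mul, Matrix.conjTranspose_conjTranspose,
      Matrix.conjTranspose_smul, Matrix.conjTranspose_conjTranspose, hs, inv_pow, hmq] at h1
    rw [hθ, ← Matrix.mul_assoc, h1, Matrix.mul_assoc, ioH_io hs, hvz, one_smul, Matrix.mul_one]
  -- decomposition
  obtain ⟨w₁, hw₁⟩ := exists_io_of_blocks (S := S) (X := θ - io α z * D) (by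
    intro x
    obtain ⟨p, hp, t, ht, rfl⟩ := (hzv.nd hF).exists_add hF x
    obtain ⟨c1, c2, rfl⟩ := Submodule.mem_span_pair.1 hp
    obtain ⟨ht1, ht2⟩ := (Hyp.mem_perp_iff hF).1 ht
    obtain ⟨c3, hc3⟩ := hblk t ht1 ht2
    refine ⟨c1 ^ q * m⁻¹ + c3, ?_⟩
    have e1 : (io α t)ᴴ * (θ - io α z * D) = c3 • S := by
      rw [Matrix.mul_sub, hc3, ← Matrix.mul_assoc, io_conjT_zero hs hF ((hermForm_eq_zero_comm hF).1 ht1),
        Matrix.zero_mul, sub_zero]
    have e2 : (io α z)ᴴ * (θ - io α z * D) = m⁻¹ • S := by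
      rw [Matrix.mul_sub, hzθ, ← Matrix.mul_assoc, io_conjT_zero hs hF hz, Matrix.zero_mul, sub_zero]
    have e3 : (io α v)ᴴ * (θ - io α z * D) = 0 := by
      rw [Matrix.mul_sub, ← hD, ← Matrix.mul_assoc, ioH_io hs, hzv.2.2, one_smul, Matrix.one_mul,
        sub_self]
    rw [io_add, io_add, io_smul, io_smul, Matrix.conjTranspose_add, Matrix.conjTranspose_add,
      Matrix.conjTranspose_smul, Matrix.conjTranspose_smul, Matrix.add_mul, Matrix.add_mul,
      Matrix.smul_mul, Matrix.smul_mul, e1, e2, e3, hs, smul_zero, add_zero, smul_smul, add_smul])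
  have hθ1 : θ = io α w₁ * S + io α z * D := by rw [← hw₁]; abel
  have hS0 : S ≠ 0 := by
    rintro rfl
    rw [Matrix.zero_mul] at hm1
    exact smul_ne_zero hm0 (one_ne_zero (α := Matrix α α F)) hm1.symm
  have hw₁z : hermForm b F q w₁ z = m⁻¹ := by
    have h1 := hzθ
    rw [hθ1, Matrix.mul_add, ← Matrix.mul_assoc, ← Matrix.mul_assoc, io_conjT_zero hs hF hz,
      Matrix.zero_mul, add_zero, ioH_io hs, Matrix.smul_mul, Matrix.one_mul] at h1
    have h2 : (hermForm b F q w₁ z - m⁻¹) • S = 0 := by rw [sub_smul, h1, sub_self]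
    exact sub_eq_zero.1 ((smul_eq_zero.1 h2).resolve_right hS0)
  have hw₁z0 : hermForm b F q w₁ z ≠ 0 := by rw [hw₁z]; exact inv_ne_zero hm0
  have hzw₁0 : hermForm b F q z w₁ ≠ 0 := fun h => hw₁z0 ((hermForm_eq_zero_comm hF).1 h)
  -- make it isotropic
  obtain ⟨t, ht⟩ := exists_trace_eq hF (c := -hermForm b F q w₁ w₁) (by
    rw [neg_pow_q hF, hermForm_self_pow_q hF])
  obtain ⟨n, hn⟩ : ∃ n, n = t / hermForm b F q z w₁ := ⟨_, rfl⟩
  obtain ⟨w, hw⟩ : ∃ w, w = w₁ + n • z := ⟨_, rfl⟩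
  have hww : hermForm b F q w w = 0 := by
    have h1 : n * hermForm b F q z w₁ = t := by rw [hn, div_mul_cancel₀ _ hzw₁0]
    have h2 : n ^ q * hermForm b F q w₁ z = t ^ q := by
      rw [← h1, mul_pow, hermForm_symm hF]
    rw [hw]
    simp only [hermForm_add_left, hermForm_add_right hF, hermForm_smul_left, hermForm_smul_right, hz]
    linear_combination h1 + h2 + ht
  have hwz : hermForm b F q w z = m⁻¹ := by
    rw [hw, hermForm_add_left, hermForm_smul_left, hz, mul_zero, add_zero, hw₁z]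
  have hminv : m⁻¹ ^ q = m⁻¹ := by rw [inv_pow, hmq]
  have hzw : hermForm b F q z w = m⁻¹ := by rw [← hermForm_symm hF, hwz, hminv]
  obtain ⟨E, hE⟩ : ∃ E, E = m⁻¹ • ((D - n • S) * Sᴴ) := ⟨_, rfl⟩
  have hES : E * S = D - n • S := by
    rw [hE, Matrix.smul_mul, Matrix.mul_assoc, hm2, Matrix.mul_smul, Matrix.mul_one, smul_smul,
      inv_mul_cancel₀ hm0, one_smul]
  have hθ2 : θ = (io α w + io α z * E) * S := by
    rw [Matrix.add_mul, Matrix.mul_assoc, hES, hθ1, hw, io_add, io_smul, Matrix.add_mul,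
      Matrix.smul_mul, Matrix.mul_sub, Matrix.mul_smul]
    abel
  obtain ⟨η, hη⟩ : ∃ η, η = io α w + io α z * E := ⟨_, rfl⟩
  rw [← hη] at hθ2
  -- the root element
  obtain ⟨c₀, hc₀0, hc₀⟩ := exists_skew hF
  obtain ⟨c, hc⟩ : ∃ c, c = c₀ * m := ⟨_, rfl⟩
  have hc0 : c ≠ 0 := by rw [hc]; exact mul_ne_zero hc₀0 hm0
  have hcq : c ^ q = -c := by rw [hc, mul_pow, hc₀, hmq]; ring
  have hR : KN K (c • (η * ηᴴ)) := by
    have h1 := h.kn_conj hr (h.scalar_mem (α := α) hs hF hc₀ v hzv.2.1)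
    convert h1 using 1
    unfold tt
    rw [← Matrix.mul_assoc, ← Matrix.mul_assoc, ← hθ, Matrix.mul_assoc _ _ rᴴ,
      ← Matrix.conjTranspose_mul, ← hθ, hθ2, Matrix.mul_smul, Matrix.mul_one, Matrix.smul_mul,
      Matrix.conjTranspose_mul, Matrix.mul_assoc η S, ← Matrix.mul_assoc S, hm1, Matrix.smul_mul,
      Matrix.one_mul, Matrix.mul_smul, smul_smul, hc]
  have hηη : ηᴴ * η = 0 := by
    have h1 : θᴴ * θ = 0 := by
      rw [hθ, Matrix.conjTranspose_mul, Matrix.mul_assoc, ← Matrix.mul_assoc rᴴ, h.conjT_mul hr,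
        Matrix.one_mul, io_conjT_zero hs hF hzv.2.1]
    rw [hθ2, Matrix.conjTranspose_mul] at h1
    calc ηᴴ * η = (m⁻¹ * m⁻¹) • ((S * Sᴴ) * (ηᴴ * η) * (S * Sᴴ)) := by
          rw [hm1, Matrix.smul_mul, Matrix.one_mul, Matrix.smul_mul, Matrix.mul_smul, Matrix.mul_one,
            smul_smul, smul_smul]
          have : m⁻¹ * m⁻¹ * (m * m) = 1 := by field_simp
          rw [← mul_assoc] at this
          rw [show m⁻¹ * m⁻¹ * m * m = 1 from this, one_smul]
      _ = (m⁻¹ * m⁻¹) • (S * (Sᴴ * ηᴴ * (η * S)) * Sᴴ) := by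
          simp only [Matrix.mul_assoc]
      _ = 0 := by rw [h1, Matrix.mul_zero, Matrix.zero_mul, smul_zero]
  -- a vector orthogonal to `z` and `w`
  have hH : Hyp q z (m • w) := by
    refine ⟨hz, ?_, ?_⟩
    · rw [hermForm_smul_left, hermForm_smul_right, hww]; ring
    · rw [hermForm_smul_right, hzw, hmq, mul_inv_cancel₀ hm0]
  obtain ⟨x, hx0, hx, hxz, hxw'⟩ := exists_iso_perp_hyp hF hb hH
  have hxw : hermForm b F q x w = 0 := by
    rw [hermForm_smul_right, hmq] at hxw'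
    exact (mul_eq_zero.1 hxw').resolve_left hm0
  have hzx := (hermForm_eq_zero_comm hF).1 hxz
  have hwx := (hermForm_eq_zero_comm hF).1 hxw
  have hxη : (io α x)ᴴ * η = 0 := by
    rw [hη, Matrix.mul_add, ← Matrix.mul_assoc, io_conjT_zero hs hF hwx, io_conjT_zero hs hF hzx,
      Matrix.zero_mul, add_zero]
  have hηx : ηᴴ * io α x = 0 := by
    have := congrArg Matrix.conjTranspose hxη
    rwa [Matrix.conjTranspose_mul, Matrix.conjTranspose_conjTranspose, Matrix.conjTranspose_zero] at this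
  have hG := bb_smul hs hF m (h.bb_one (α := α) hs hF (by omega)) x z hx hz hxz
  have hGη : (1 + (tt x (m • (1 : Matrix α α F)) z - tt z (m • (1 : Matrix α α F))ᴴ x)) * η =
      η + io α x := by
    rw [Matrix.add_mul, Matrix.one_mul, Matrix.sub_mul]
    have e1 : tt x (m • (1 : Matrix α α F)) z * η = io α x := by
      rw [hη, Matrix.mul_add, ← Matrix.mul_assoc, tt_mul_io hs, tt_mul_io hs, hwz, hz, zero_smul,
        Matrix.zero_mul, add_zero, Matrix.mul_smul, Matrix.mul_one, smul_smul, inv_mul_cancel₀ hm0,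
        one_smul]
    have e2 : tt z (m • (1 : Matrix α α F))ᴴ x * η = 0 := by
      unfold tt
      rw [Matrix.mul_assoc, hxη, Matrix.mul_zero]
    rw [e1, e2, sub_zero]
  have hR2 := h.kn_conj hG hR
  have e4 : (1 + (tt x (m • (1 : Matrix α α F)) z - tt z (m • (1 : Matrix α α F))ᴴ x)) *
      (c • (η * ηᴴ)) * (1 + (tt x (m • (1 : Matrix α α F)) z - tt z (m • (1 : Matrix α α F))ᴴ x))ᴴ =
      c • ((η + io α x) * (η + io α x)ᴴ) := by
    rw [Matrix.mul_smul, Matrix.smul_mul, ← Matrix.mul_assoc, hGη, Matrix.mul_assoc,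
      ← Matrix.conjTranspose_mul, hGη]
  rw [e4] at hR2
  have hR3 := hR2.sub hR (by
    rw [Matrix.smul_mul, Matrix.mul_smul, Matrix.mul_assoc, ← Matrix.mul_assoc ηᴴ, hηη,
      Matrix.zero_mul, Matrix.mul_zero, smul_zero, smul_zero]) (by
    have h1 : (η + io α x)ᴴ * η = 0 := by
      rw [Matrix.conjTranspose_add, Matrix.add_mul, hηη, hxη, add_zero]
    rw [Matrix.smul_mul, Matrix.mul_smul, Matrix.mul_assoc, ← Matrix.mul_assoc _ η, h1,
      Matrix.zero_mul, Matrix.mul_zero, smul_zero, smul_zero])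
  have hR4 := hR3.sub (h.scalar_mem (α := α) hs hF hcq x hx) (by
    rw [tt_mul hs, hx, zero_smul]) (by
    have h1 : (η + io α x)ᴴ * io α x = 0 := by
      rw [Matrix.conjTranspose_add, Matrix.add_mul, hηx, io_conjT_zero hs hF hx, add_zero]
    unfold tt
    rw [Matrix.sub_mul, Matrix.smul_mul, Matrix.smul_mul, Matrix.mul_assoc (η + io α x),
      Matrix.mul_assoc η ηᴴ, ← Matrix.mul_assoc (η + io α x)ᴴ, ← Matrix.mul_assoc (η + io α x)ᴴ, h1,
      ← Matrix.mul_assoc ηᴴ, ← Matrix.mul_assoc ηᴴ, hηx]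
    simp)
  have e5 : c • ((η + io α x) * (η + io α x)ᴴ) - c • (η * ηᴴ) - tt x (c • (1 : Matrix α α F)) x =
      c • (io α x * ηᴴ + η * (io α x)ᴴ) := by
    unfold tt
    rw [Matrix.conjTranspose_add, Matrix.add_mul, Matrix.mul_add, Matrix.mul_add, Matrix.mul_smul,
      Matrix.mul_one, Matrix.smul_mul]
    module
  rw [e5] at hR4
  -- divide by a pure element
  have hN1 := (aa_short hs hF (h.scalar_mem (α := α) hs hF hcq) hx hww hxw).neg (by
    simp [Matrix.add_mul, Matrix.mul_add, tt_mul hs, hx, hww, hxw, hwx])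
  have hR5 := InK.mul hR4 hN1
  have e6 : (io α x * ηᴴ + η * (io α x)ᴴ) = tt x (1 : Matrix α α F) w + tt x Eᴴ z + tt w 1 x + tt z E x := by
    rw [hη]
    unfold tt
    rw [Matrix.conjTranspose_add, Matrix.conjTranspose_mul, Matrix.mul_add, Matrix.add_mul,
      Matrix.mul_one, Matrix.mul_one]
    simp only [Matrix.mul_assoc]
    abel
  have e7 : (1 + c • (io α x * ηᴴ + η * (io α x)ᴴ)) *
      (1 + -(tt x (c • (1 : Matrix α α F)) w + tt w (c • (1 : Matrix α α F)) x)) =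
      1 + (c • tt x Eᴴ z + c • tt z E x - (c * c * m⁻¹) • tt x Eᴴ x) := by
    rw [e6]
    simp only [Matrix.add_mul, Matrix.mul_add, Matrix.mul_neg, Matrix.one_mul, Matrix.mul_one,
      Matrix.smul_mul, tt_smul_mid, Matrix.mul_smul, tt_mul hs, hx, hww, hxw, hwx, hxz, hzx, hwz,
      zero_smul, smul_zero, add_zero, zero_add]
    module
  rw [e7] at hR5
  obtain ⟨d, hd⟩ := h.lemB hs hsc hF hb hR5 hx0 hx hww hwx (φ := (c * m⁻¹) • Eᴴ) (by
      simp only [Matrix.add_mul, Matrix.sub_mul, Matrix.one_mul, Matrix.smul_mul, tt_mul_io hs, hxz, hx,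
        zero_smul, smul_zero, add_zero, sub_zero]) (by
      simp only [Matrix.add_mul, Matrix.sub_mul, Matrix.one_mul, Matrix.smul_mul, tt_mul_io hs, hwz,
        hwx, zero_smul, smul_zero, add_zero, sub_zero, Matrix.mul_smul, smul_smul])
  have hcm : c * m⁻¹ ≠ 0 := mul_ne_zero hc0 (inv_ne_zero hm0)
  have hEd : Eᴴ = ((c * m⁻¹)⁻¹ * d) • 1 := by
    rw [mul_smul, ← hd, smul_smul, inv_mul_cancel₀ hcm, one_smul]
  have hEd2 : E = (((c * m⁻¹)⁻¹ * d) ^ q) • 1 := by
    have := congrArg Matrix.conjTranspose hEd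
    rwa [Matrix.conjTranspose_conjTranspose, Matrix.conjTranspose_smul, Matrix.conjTranspose_one,
      hs] at this
  refine ⟨((c * m⁻¹)⁻¹ * d) ^ q + n, ?_⟩
  have h1 : D = E * S + n • S := by rw [hES]; abel
  rw [h1, hEd2, Matrix.smul_mul, Matrix.one_mul, add_smul]

/-- The remaining blocks. -/
theorem Ctx.lemE (h : Ctx q K) (hsc : Scal q K) (hF : Fintype.card F = q ^ 2) (hb : 4 ≤ b)
    {r : Matrix (α × Fin b) (α × Fin b) F} (hr : InK K r) {z v : Fin b → F} (hzv : Hyp q z v)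
    {S : Matrix α α F} (hrz : r * io α z = io α z * S) {y : Fin b → F}
    (hyz : hermForm b F q y z = 0) (hyv : hermForm b F q y v = 0) :
    ∃ c : F, (io α v)ᴴ * (r * io α y) = c • S := by
  have hz0 := hzv.left_ne
  have hz := hzv.1
  have hvz := (hzv.symm hF).2.2
  obtain ⟨m, hm0, hmq, hm1, hm2, hm3⟩ := h.norm_basic hs hsc hF hb hr hz0 hz hrz
  obtain ⟨l, hl⟩ := exists_pow_q_ne (F := F) hF
  have hiso : ∀ y : Fin b → F, hermForm b F q y y = 0 → hermForm b F q y z = 0 →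
      hermForm b F q y v = 0 → ∃ c : F, (io α v)ᴴ * (r * io α y) = c • S := by
    intro y hy hyz hyv
    obtain ⟨θ, hθ⟩ : ∃ θ, θ = r * io α y := ⟨_, rfl⟩
    have ho : θᴴ * io α z = 0 := by rw [hθ]; exact h.orth_aux hs hsc hF hb hr hz0 hz hrz hyz
    have key : ∀ n : F, ∃ c : F, n • (S * (θᴴ * io α v)) - n ^ q • ((io α v)ᴴ * θ * Sᴴ) = c • 1 := by
      intro n
      have hG := h.conj_short hs hsc hF hb hr hz0 hz hrz hy hyz n
      rw [← hθ] at hG
      have hGz : (1 + (n • (io α z * S * θᴴ) - n ^ q • (θ * Sᴴ * (io α z)ᴴ))) * io α z =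
          io α z * (1 : Matrix α α F) := by
        rw [Matrix.add_mul, Matrix.one_mul, Matrix.sub_mul, Matrix.smul_mul, Matrix.smul_mul,
          Matrix.mul_assoc _ θᴴ, ho, Matrix.mul_zero, Matrix.mul_assoc _ _ (io α z),
          io_conjT_zero hs hF hz, Matrix.mul_zero, smul_zero, smul_zero, sub_zero, add_zero,
          Matrix.mul_one]
      have hGv : (1 + (n • (io α z * S * θᴴ) - n ^ q • (θ * Sᴴ * (io α z)ᴴ))) * io α v =
          io α v + n • (io α z * (S * (θᴴ * io α v))) - n ^ q • (θ * Sᴴ) := by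
        rw [Matrix.add_mul, Matrix.one_mul, Matrix.sub_mul, Matrix.smul_mul, Matrix.smul_mul,
          Matrix.mul_assoc _ _ (io α v), Matrix.mul_assoc (θ * Sᴴ) _ (io α v), ioH_io hs, hvz,
          one_smul, Matrix.mul_one, Matrix.mul_assoc (io α z) S]
        abel
      obtain ⟨c, hc⟩ := h.lemD hs hsc hF hb hG hzv hGz (by
        intro x hxz hxv
        obtain ⟨c, hc⟩ := h.lemC hs hsc hF hb hr hz0 hz hrz hyz hxz
        rw [← hθ] at hc
        refine ⟨-(n ^ q * (c * m)), ?_⟩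
        rw [hGv, Matrix.mul_sub, Matrix.mul_add, Matrix.mul_smul, Matrix.mul_smul,
          ← Matrix.mul_assoc _ (io α z), io_conjT_zero hs hF ((hermForm_eq_zero_comm hF).1 hxv),
          io_conjT_zero hs hF ((hermForm_eq_zero_comm hF).1 hxz), Matrix.zero_mul, smul_zero,
          add_zero, zero_sub, ← Matrix.mul_assoc _ θ, hc, Matrix.smul_mul, hm1]
        module)
      refine ⟨c, ?_⟩
      rw [hGv, Matrix.mul_sub, Matrix.mul_add, Matrix.mul_smul, Matrix.mul_smul,
        io_conjT_zero hs hF hzv.2.1, ← Matrix.mul_assoc _ (io α z), ioH_io hs, hzv.2.2, one_smul,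
        Matrix.one_mul, zero_add, ← Matrix.mul_assoc _ θ] at hc
      exact hc
    obtain ⟨c1, h1⟩ := key 1
    obtain ⟨c2, h2⟩ := key l
    rw [one_smul, one_pow, one_smul] at h1
    have hne : l ^ q - l ≠ 0 := sub_ne_zero.2 hl
    have h3 : (l ^ q - l) • (S * (θᴴ * io α v)) = (l ^ q * c1 - c2) • 1 := by
      have : (l ^ q - l) • (S * (θᴴ * io α v)) = l ^ q • (S * (θᴴ * io α v) - (io α v)ᴴ * θ * Sᴴ) -
          (l • (S * (θᴴ * io α v)) - l ^ q • ((io α v)ᴴ * θ * Sᴴ)) := by module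
      rw [this, h1, h2]
      module
    obtain ⟨c, hc⟩ : ∃ c : F, S * (θᴴ * io α v) = c • 1 :=
      ⟨(l ^ q - l)⁻¹ * (l ^ q * c1 - c2), by
        rw [mul_smul, ← h3, smul_smul, inv_mul_cancel₀ hne, one_smul]⟩
    refine ⟨(m⁻¹ * c) ^ q, ?_⟩
    have h4 : θᴴ * io α v = (m⁻¹ * c) • Sᴴ := by
      calc θᴴ * io α v = (m⁻¹ • (Sᴴ * S)) * (θᴴ * io α v) := by
            rw [hm2, smul_smul, inv_mul_cancel₀ hm0, one_smul, Matrix.one_mul]
        _ = m⁻¹ • (Sᴴ * (S * (θᴴ * io α v))) := by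
            rw [Matrix.smul_mul, Matrix.mul_assoc Sᴴ S]
        _ = _ := by
            rw [hc, Matrix.mul_smul, Matrix.mul_one, smul_smul]
    have h5 := congrArg Matrix.conjTranspose h4
    rw [Matrix.conjTranspose_mul, Matrix.conjTranspose_conjTranspose, Matrix.conjTranspose_smul,
      Matrix.conjTranspose_conjTranspose, hs] at h5
    rw [← hθ]
    exact h5
  let T : Submodule F (Fin b → F) :=
    { carrier := {x | ∃ c : F, (io α v)ᴴ * (r * io α x) = c • S}
      zero_mem' := ⟨0, by rw [io_zero, Matrix.mul_zero, Matrix.mul_zero, zero_smul]⟩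
      add_mem' := by
        rintro x x' ⟨c, hc⟩ ⟨c', hc'⟩
        exact ⟨c + c', by rw [io_add, Matrix.mul_add, Matrix.mul_add, hc, hc', add_smul]⟩
      smul_mem' := by
        rintro l x ⟨c, hc⟩
        exact ⟨l * c, by rw [io_smul, Matrix.mul_smul, Matrix.mul_smul, hc, smul_smul]⟩ }
  have hle : perp q (Submodule.span F {z, v}) ≤ T := by
    apply nd_le_of_isotropic hF ((hzv.nd hF).perp hF)
    · rw [hzv.finrank_perp hF]; omega
    · intro x hx hxx
      obtain ⟨h1, h2⟩ := (Hyp.mem_perp_iff hF).1 hx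
      exact hiso x hxx h1 h2
  exact hle ((Hyp.mem_perp_iff hF).2 ⟨hyz, hyv⟩)

/-- Elements of `K` normalising `U ⊗ z` are pure. -/
theorem Ctx.pure_of_norm (h : Ctx q K) (hsc : Scal q K) (hF : Fintype.card F = q ^ 2) (hb : 4 ≤ b)
    {r : Matrix (α × Fin b) (α × Fin b) F} (hr : InK K r) {z : Fin b → F} (hz0 : z ≠ 0)
    (hz : hermForm b F q z z = 0) {S : Matrix α α F} (hrz : r * io α z = io α z * S) :
    ∃ B : Matrix (Fin b) (Fin b) F, ∀ w : Fin b → F, r * io α w = io α (B *ᵥ w) * S := by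
  obtain ⟨v, hzv⟩ := exists_hyp' hF hz0 hz
  have hvz := (hzv.symm hF).2.2
  obtain ⟨m, hm0, hmq, hm1, hm2, hm3⟩ := h.norm_basic hs hsc hF hb hr hz0 hz hrz
  have hrH := h.conjT_mem hr
  have hzr : ∀ y, (io α z)ᴴ * (r * io α y) = (m⁻¹ * hermForm b F q y z) • S := by
    intro y
    have h1 := congrArg Matrix.conjTranspose hm3
    rw [Matrix.conjTranspose_mul, Matrix.conjTranspose_mul, Matrix.conjTranspose_conjTranspose,
      Matrix.conjTranspose_smul, Matrix.conjTranspose_conjTranspose, hs, inv_pow, hmq] at h1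
    rw [← Matrix.mul_assoc, h1, Matrix.mul_assoc, ioH_io hs, Matrix.mul_smul, Matrix.mul_one,
      smul_smul, mul_comm]
  -- all blocks
  have hWv : ∀ x : Fin b → F, hermForm b F q x z = 0 → hermForm b F q x v = 0 →
      ∃ c : F, (io α x)ᴴ * (r * io α v) = c • S := by
    intro x hxz hxv
    obtain ⟨c, hc⟩ := h.lemE hs hsc hF hb hrH hzv hm3 hxz hxv
    refine ⟨c ^ q * m⁻¹, ?_⟩
    have h1 := congrArg Matrix.conjTranspose hc
    rw [Matrix.conjTranspose_mul, Matrix.conjTranspose_mul, Matrix.conjTranspose_conjTranspose,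
      Matrix.conjTranspose_conjTranspose, Matrix.conjTranspose_smul, Matrix.conjTranspose_smul,
      Matrix.conjTranspose_conjTranspose, hs, hs, inv_pow, hmq, smul_smul, Matrix.mul_assoc] at h1
    exact h1
  obtain ⟨cv, hcv⟩ := h.lemD hs hsc hF hb hr hzv hrz hWv
  have hcol : ∀ y : Fin b → F, ∃ w : Fin b → F, r * io α y = io α w * S := by
    intro y
    obtain ⟨Y, hY⟩ : ∃ Y, Y = r * io α y := ⟨_, rfl⟩
    have rz : ∃ c : F, (io α z)ᴴ * Y = c • S := ⟨_, by rw [hY]; exact hzr _⟩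
    have rvt : (∃ c : F, (io α v)ᴴ * Y = c • S) ∧ ∀ t : Fin b → F, hermForm b F q t z = 0 →
        hermForm b F q t v = 0 → ∃ c : F, (io α t)ᴴ * Y = c • S := by
      obtain ⟨p', hp', t', ht', rfl⟩ := (hzv.nd hF).exists_add hF y
      obtain ⟨d1, d2, rfl⟩ := Submodule.mem_span_pair.1 hp'
      obtain ⟨ht1', ht2'⟩ := (Hyp.mem_perp_iff hF).1 ht'
      have hYe : Y = d1 • (io α z * S) + d2 • (r * io α v) + r * io α t' := by
        rw [hY, io_add, io_add, io_smul, io_smul, Matrix.mul_add, Matrix.mul_add, Matrix.mul_smul,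
          Matrix.mul_smul, hrz]
      constructor
      · obtain ⟨c3, h3⟩ := h.lemE hs hsc hF hb hr hzv hrz ht1' ht2'
        refine ⟨d1 + d2 * cv + c3, ?_⟩
        rw [hYe, Matrix.mul_add, Matrix.mul_add, h3, Matrix.mul_smul, Matrix.mul_smul, hcv,
          ← Matrix.mul_assoc, ioH_io hs, hzv.2.2, one_smul, Matrix.one_mul]
        module
      · intro t ht1 ht2
        obtain ⟨c3, h3⟩ := h.lemC hs hsc hF hb hr hz0 hz hrz ht1' ht1
        obtain ⟨c4, h4⟩ := hWv t ht1 ht2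
        refine ⟨d2 * c4 + c3, ?_⟩
        rw [hYe, Matrix.mul_add, Matrix.mul_add, h3, Matrix.mul_smul, Matrix.mul_smul, h4,
          ← Matrix.mul_assoc, io_conjT_zero hs hF ((hermForm_eq_zero_comm hF).1 ht1),
          Matrix.zero_mul]
        module
    rw [← hY]
    apply exists_io_of_blocks
    intro x
    obtain ⟨p, hp, t, ht, rfl⟩ := (hzv.nd hF).exists_add hF x
    obtain ⟨c1, c2, rfl⟩ := Submodule.mem_span_pair.1 hp
    obtain ⟨ht1, ht2⟩ := (Hyp.mem_perp_iff hF).1 ht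
    obtain ⟨e1, h1⟩ := rz
    obtain ⟨e2, h2⟩ := rvt.1
    obtain ⟨e3, h3⟩ := rvt.2 t ht1 ht2
    refine ⟨c1 ^ q * e1 + c2 ^ q * e2 + e3, ?_⟩
    rw [io_add, io_add, io_smul, io_smul, Matrix.conjTranspose_add, Matrix.conjTranspose_add,
      Matrix.conjTranspose_smul, Matrix.conjTranspose_smul, Matrix.add_mul, Matrix.add_mul,
      Matrix.smul_mul, Matrix.smul_mul, h1, h2, h3, hs, hs]
    module
  choose f hf using hcol
  refine ⟨Matrix.of fun i j => f (Pi.single j 1) i, fun w => ?_⟩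
  have h1 : w = ∑ j, w j • (Pi.single j 1 : Fin b → F) := by
    funext i
    simp [Finset.sum_apply, Pi.single_apply]
  have h2 : (Matrix.of fun i j => f (Pi.single j 1) i) *ᵥ w = ∑ j, w j • f (Pi.single j 1) := by
    funext i
    simp only [Matrix.mulVec, dotProduct, Matrix.of_apply, Finset.sum_apply, Pi.smul_apply, smul_eq_mul]
    exact Finset.sum_congr rfl fun j _ => mul_comm _ _
  rw [h2]
  conv_lhs => rw [h1]
  rw [io_sum, io_sum, Matrix.mul_sum, Matrix.sum_mul]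
  refine Finset.sum_congr rfl fun j _ => ?_
  rw [io_smul, io_smul, Matrix.mul_smul, Matrix.smul_mul, hf]

end Cfsg.Agent.UTP
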