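import Mathlib
import Cfsg.Agent.UTP.Norm2

set_option autoImplicit false
set_option linter.unusedSectionVars false
set_option linter.unusedVariables false

/-!
Pure elements; conjugates of root elements.
-/

namespace Cfsg.Agent.UTP

open scoped Matrix Kronecker
open Cfsg.Agent.Uni Module
open Matrix (GeneralLinearGroup)

variable {F : Type*} [Field F] [Fintype F] [StarRing F] {q b : ℕ}
variable {α : Type*} [Fintype α] [DecidableEq α]
variable {K : Subgroup (GL (α × Fin b) F)}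

/-- Pure matrices. -/
def IsPure (M : Matrix (α × Fin b) (α × Fin b) F) : Prop :=
  ∃ (S : Matrix α α F) (B : Matrix (Fin b) (Fin b) F), M = S ⊗ₖ B

theorem kr_io (S : Matrix α α F) (B : Matrix (Fin b) (Fin b) F) (w : Fin b → F) :
    (S ⊗ₖ B) * io α w = io α (B *ᵥ w) * S := by
  ext ⟨i, j⟩ k
  rw [Matrix.mul_apply, Matrix.mul_apply, Fintype.sum_prod_type, Finset.sum_eq_single k,
    Finset.sum_eq_single i]
  · simp only [io, Matrix.of_apply, Matrix.kroneckerMap_apply, if_true, Matrix.mulVec, dotProduct,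
      Finset.sum_mul]
    exact Finset.sum_congr rfl fun l _ => by ring
  · intro l _ hl
    simp [io, Ne.symm hl]
  · intro h; exact absurd (Finset.mem_univ _) h
  · intro l _ hl
    apply Finset.sum_eq_zero
    intro m _
    simp [io, hl]
  · intro h; exact absurd (Finset.mem_univ _) h

theorem isPure_iff {M : Matrix (α × Fin b) (α × Fin b) F} :
    IsPure M ↔ ∃ (S : Matrix α α F) (B : Matrix (Fin b) (Fin b) F),
      ∀ w : Fin b → F, M * io α w = io α (B *ᵥ w) * S := by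
  constructor
  · rintro ⟨S, B, rfl⟩
    exact ⟨S, B, fun w => kr_io S B w⟩
  · rintro ⟨S, B, h⟩
    exact ⟨S, B, ext_io fun w => by rw [h, kr_io]⟩

theorem kron_sub' (S : Matrix α α F) (B C : Matrix (Fin b) (Fin b) F) :
    S ⊗ₖ (B - C) = S ⊗ₖ B - S ⊗ₖ C := by
  ext ⟨i, j⟩ ⟨k, l⟩
  simp [Matrix.kroneckerMap_apply, mul_sub]

theorem IsPure.mul {M N : Matrix (α × Fin b) (α × Fin b) F} (hM : IsPure M) (hN : IsPure N) :
    IsPure (M * N) := by
  obtain ⟨S, B, rfl⟩ := hM
  obtain ⟨S', B', rfl⟩ := hN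
  exact ⟨S * S', B * B', by rw [Matrix.mul_kronecker_mul]⟩

theorem IsPure.one : IsPure (1 : Matrix (α × Fin b) (α × Fin b) F) :=
  ⟨1, 1, by rw [Matrix.one_kronecker_one]⟩

theorem IsPure.conjT {M : Matrix (α × Fin b) (α × Fin b) F} (hM : IsPure M) : IsPure Mᴴ := by
  obtain ⟨S, B, rfl⟩ := hM
  exact ⟨Sᴴ, Bᴴ, by rw [Matrix.conjTranspose_kronecker]⟩

theorem IsPure.pow {M : Matrix (α × Fin b) (α × Fin b) F} (hM : IsPure M) (n : ℕ) : IsPure (M ^ n) := by
  induction n with
  | zero => rw [pow_zero]; exact IsPure.one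
  | succ n ih => rw [pow_succ]; exact ih.mul hM

/-- A matrix for which every vector is an eigenvector. -/
theorem exists_indep [Nonempty α] {A : Matrix α α F} (hA : ¬ ∃ c : F, A = c • 1) :
    ∃ (u φ : α → F), φ ⬝ᵥ u = 1 ∧ φ ⬝ᵥ (A *ᵥ u) = 0 := by
  by_contra hcon
  push Not at hcon
  apply hA
  -- off-diagonal entries vanish
  have hoff : ∀ i j, i ≠ j → A i j = 0 := by
    intro i j hij
    by_contra hne
    -- `u = e_j`, `φ = e_j^* - (A j j / A i j) e_i^*`
    apply hcon (Pi.single j 1) (Pi.single j 1 - (A j j / A i j) • Pi.single i 1)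
    · rw [sub_dotProduct, smul_dotProduct, single_dotProduct, single_dotProduct, Pi.single_eq_same,
        Pi.single_eq_of_ne hij]
      simp
    · rw [sub_dotProduct, smul_dotProduct, single_dotProduct, single_dotProduct,
        Matrix.mulVec_single_one]
      simp only [one_mul, smul_eq_mul, Matrix.col_apply]
      field_simp
      ring
  have hdiag : ∀ i j, A i i = A j j := by
    intro i j
    by_cases hij : i = j
    · rw [hij]
    by_contra hne
    -- `u = e_i + e_j`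
    have h1 : ∀ k, (A *ᵥ (Pi.single i 1 + Pi.single j 1)) k = A k i + A k j := by
      intro k
      rw [Matrix.mulVec_add, Matrix.mulVec_single_one, Matrix.mulVec_single_one]
      rfl
    have hd : A j j - A i i ≠ 0 := sub_ne_zero.2 (Ne.symm hne)
    apply hcon (Pi.single i 1 + Pi.single j 1)
      ((A j j - A i i)⁻¹ • (A j j • Pi.single i 1 - A i i • Pi.single j 1))
    · rw [smul_dotProduct, sub_dotProduct, smul_dotProduct, smul_dotProduct, single_dotProduct,
        single_dotProduct]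
      simp only [Pi.add_apply, Pi.single_eq_same, Pi.single_eq_of_ne hij,
        Pi.single_eq_of_ne (Ne.symm hij), smul_eq_mul]
      field_simp
      ring
    · rw [smul_dotProduct, sub_dotProduct, smul_dotProduct, smul_dotProduct, single_dotProduct,
        single_dotProduct, h1, h1, hoff i j hij, hoff j i (Ne.symm hij)]
      simp only [smul_eq_mul]
      ring
  obtain ⟨i₀⟩ := ‹Nonempty α›
  refine ⟨A i₀ i₀, ?_⟩
  ext i j
  rw [Matrix.smul_apply, Matrix.one_apply, smul_eq_mul]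
  by_cases hij : i = j
  · subst hij
    rw [if_pos rfl, mul_one]
    exact hdiag i i₀
  · rw [if_neg hij, mul_zero]
    exact hoff i j hij

/-- A pure matrix of small rank minus one has scalar first factor. -/
theorem scalar_of_small {κ : Type*} [Fintype κ] [Nonempty α] {S : Matrix α α F}
    {B : Matrix (Fin b) (Fin b) F} {L : Matrix (α × Fin b) κ F} {R : Matrix κ (α × Fin b) F}
    (h : S ⊗ₖ B = 1 + L * R) (hcard : Fintype.card κ < b) : ∃ c : F, S = c • 1 := by
  by_contra hS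
  obtain ⟨u, φ, h1, h2⟩ := exists_indep hS
  let T : (Fin b → F) →ₗ[F] (κ → F) :=
    { toFun := fun y => R *ᵥ (io α y *ᵥ u)
      map_add' := fun y y' => by rw [io_add, Matrix.add_mulVec, Matrix.mulVec_add]
      map_smul' := fun c y => by
        rw [io_smul, Matrix.smul_mulVec, Matrix.mulVec_smul, RingHom.id_apply] }
  have hker : LinearMap.ker T ≠ ⊥ := by
    apply LinearMap.ker_ne_bot_of_finrank_lt
    rw [Module.finrank_fintype_fun_eq_card, Module.finrank_fintype_fun_eq_card, Fintype.card_fin]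
    exact hcard
  obtain ⟨y, hy, hy0⟩ := (Submodule.ne_bot_iff _).1 hker
  have hy' : R *ᵥ (io α y *ᵥ u) = 0 := LinearMap.mem_ker.1 hy
  have h3 : (S ⊗ₖ B) *ᵥ (io α y *ᵥ u) = io α y *ᵥ u := by
    rw [h, Matrix.add_mulVec, Matrix.one_mulVec, ← Matrix.mulVec_mulVec, hy', Matrix.mulVec_zero,
      add_zero]
  rw [Matrix.mulVec_mulVec, kr_io, ← Matrix.mulVec_mulVec] at h3
  -- apply the functional
  have hio : ∀ (w : Fin b → F) (x : α → F) (j : Fin b), ∑ i, φ i * (io α w *ᵥ x) (i, j) =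
      (φ ⬝ᵥ x) * w j := by
    intro w x j
    rw [dotProduct, Finset.sum_mul]
    refine Finset.sum_congr rfl fun i _ => ?_
    rw [Matrix.mulVec, dotProduct, Finset.sum_eq_single i]
    · simp only [io, Matrix.of_apply, if_true]
      ring
    · intro k _ hk
      simp [io, Ne.symm hk]
    · intro h; exact absurd (Finset.mem_univ _) h
  apply hy0
  funext j
  have h4 := hio y u j
  rw [← h3, hio, h2, zero_mul, h1, one_mul] at h4
  exact h4.symm

variable (hs : ∀ x : F, star x = x ^ q)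
include hs

theorem Ctx.su_pure (h : Ctx q K) (s : SU b F q) :
    ∃ G : Matrix (α × Fin b) (α × Fin b) F, InK K G ∧ IsPure G ∧
      ∀ w : Fin b → F, G * io α w = io α (act s w) := by
  obtain ⟨G, hG, hGw⟩ := h.su s
  refine ⟨G, hG, isPure_iff.2 ⟨1, ((s : Matrix.SpecialLinearGroup (Fin b) F) :
    Matrix (Fin b) (Fin b) F), fun w => ?_⟩, hGw⟩
  rw [hGw, Matrix.mul_one]
  rfl

/-- An element of `K` mapping `U ⊗ w` to `U ⊗ w'` is pure. -/
theorem Ctx.pure_of_map [Nonempty α] (h : Ctx q K) (hsc : Scal q K) (hF : Fintype.card F = q ^ 2)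
    (hb : 4 ≤ b) {G : Matrix (α × Fin b) (α × Fin b) F} (hG : InK K G) {w w' : Fin b → F}
    (hw0 : w ≠ 0) (hw : hermForm b F q w w = 0) (hw'0 : w' ≠ 0) {S : Matrix α α F}
    (hGw : G * io α w = io α w' * S) : IsPure G := by
  -- `S` is invertible
  obtain ⟨v, hv⟩ := exists_hyp' hF hw0 hw
  have hLS : ((io α v)ᴴ * Gᴴ * io α w') * S = 1 := by
    calc ((io α v)ᴴ * Gᴴ * io α w') * S = (io α v)ᴴ * Gᴴ * (io α w' * S) := by rw [Matrix.mul_assoc]
      _ = (io α v)ᴴ * ((Gᴴ * G) * io α w) := by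
          rw [← hGw]; simp only [Matrix.mul_assoc]
      _ = 1 := by rw [h.conjT_mul hG, Matrix.one_mul, ioH_io hs, hv.2.2, one_smul]
  have hSL := mul_eq_one_comm.1 hLS
  have hw' : hermForm b F q w' w' = 0 := by
    have h1 : (G * io α w)ᴴ * (G * io α w) = 0 := by
      rw [Matrix.conjTranspose_mul, Matrix.mul_assoc, ← Matrix.mul_assoc Gᴴ, h.conjT_mul hG,
        Matrix.one_mul, io_conjT_zero hs hF hw]
    rw [hGw, Matrix.conjTranspose_mul, Matrix.mul_assoc, ← Matrix.mul_assoc (io α w')ᴴ, ioH_io hs,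
      Matrix.smul_mul, Matrix.one_mul, Matrix.mul_smul] at h1
    rcases smul_eq_zero.1 h1 with h2 | h2
    · exact h2
    · exfalso
      have h3 : (1 : Matrix α α F) = 0 := by
        obtain ⟨L, hL⟩ : ∃ L, L = ((io α v)ᴴ * Gᴴ * io α w') := ⟨_, rfl⟩
        rw [← hL] at hSL hLS
        have h4 : Lᴴ * Sᴴ = 1 := by
          rw [← Matrix.conjTranspose_mul, hSL, Matrix.conjTranspose_one]
        calc (1 : Matrix α α F) = Lᴴ * (Sᴴ * S) * L := by
              rw [← Matrix.mul_assoc, h4, Matrix.one_mul, hSL]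
          _ = 0 := by rw [h2, Matrix.mul_zero, Matrix.zero_mul]
      exact one_ne_zero h3
  obtain ⟨s, hsw⟩ := exists_SU_isotropic hF (by omega) hw'0 hw0 hw' hw
  obtain ⟨Y, hY, hYp, hYw⟩ := h.su_pure hs s
  have h1 : (Y * G) * io α w = io α w * S := by
    rw [Matrix.mul_assoc, hGw, ← Matrix.mul_assoc, hYw, hsw]
  obtain ⟨B, hB⟩ := h.pure_of_norm hs hsc hF hb (hY.mul hG) hw0 hw h1
  have h2 : IsPure (Y * G) := isPure_iff.2 ⟨S, B, hB⟩
  have h3 : G = Yᴴ * (Y * G) := by
    rw [← Matrix.mul_assoc, h.conjT_mul hY, Matrix.one_mul]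
  rw [h3]
  exact hYp.conjT.mul h2

/-- A conjugate of a root element is pure only if the conjugating element is. -/
theorem Ctx.pure_of_conj [Nonempty α] (h : Ctx q K) (hsc : Scal q K) (hF : Fintype.card F = q ^ 2)
    (hb : 4 ≤ b) (hcard : Fintype.card α < b) {G : Matrix (α × Fin b) (α × Fin b) F} (hG : InK K G)
    {w : Fin b → F} (hw0 : w ≠ 0) (hw : hermForm b F q w w = 0) {c : F} (hc0 : c ≠ 0)
    (hp : IsPure (G * (1 + tt w (c • (1 : Matrix α α F)) w) * Gᴴ)) : IsPure G := by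
  obtain ⟨θ, hθ⟩ : ∃ θ, θ = G * io α w := ⟨_, rfl⟩
  have hconj : G * (1 + tt w (c • (1 : Matrix α α F)) w) * Gᴴ = 1 + (c • θ) * θᴴ := by
    rw [Matrix.mul_add, Matrix.mul_one, Matrix.add_mul, h.mul_conjT hG]
    congr 1
    unfold tt
    rw [← Matrix.mul_assoc, ← Matrix.mul_assoc, ← hθ, Matrix.mul_assoc _ _ Gᴴ,
      ← Matrix.conjTranspose_mul, ← hθ, Matrix.mul_smul, Matrix.mul_one]
  rw [hconj] at hp
  obtain ⟨S, B, hSB⟩ := hp
  obtain ⟨s, rfl⟩ := scalar_of_small hSB.symm hcard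
  have hSB' : (c • θ) * θᴴ = (1 : Matrix α α F) ⊗ₖ (s • B - 1) := by
    rw [kron_sub', Matrix.one_kronecker_one, Matrix.kronecker_smul, ← Matrix.smul_kronecker,
      ← hSB]
    abel
  -- `θ` is nonzero
  obtain ⟨v, hv⟩ := exists_hyp' hF hw0 hw
  have hθθ : ((io α v)ᴴ * Gᴴ) * θ = 1 := by
    rw [hθ, Matrix.mul_assoc, ← Matrix.mul_assoc Gᴴ, h.conjT_mul hG, Matrix.one_mul, ioH_io hs,
      hv.2.2, one_smul]
  have hne : s • B - 1 ≠ 0 := by
    intro h0
    rw [h0, Matrix.kronecker_zero] at hSB'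
    have h1 : θᴴ * ((io α v)ᴴ * Gᴴ)ᴴ = 1 := by
      rw [← Matrix.conjTranspose_mul, hθθ, Matrix.conjTranspose_one]
    have h2 : (1 : Matrix α α F) = 0 := by
      calc (1 : Matrix α α F) = c⁻¹ • (((io α v)ᴴ * Gᴴ) * ((c • θ) * θᴴ) * ((io α v)ᴴ * Gᴴ)ᴴ) := by
            rw [Matrix.mul_assoc, Matrix.mul_assoc (c • θ), h1, Matrix.mul_one, Matrix.mul_smul, hθθ,
              smul_smul, inv_mul_cancel₀ hc0, one_smul]
        _ = 0 := by rw [hSB', Matrix.mul_zero, Matrix.zero_mul, smul_zero]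
    exact one_ne_zero h2
  obtain ⟨y, hy⟩ : ∃ y : Fin b → F, (s • B - 1) *ᵥ y ≠ 0 := by
    by_contra hcon
    push Not at hcon
    apply hne
    ext i j
    have := congrFun (hcon (Pi.single j 1)) i
    rw [Matrix.mulVec_single_one] at this
    exact this
  have h3 : io α ((s • B - 1) *ᵥ y) = θ * (c • (θᴴ * io α y)) := by
    have := kr_io (1 : Matrix α α F) (s • B - 1) y
    rw [Matrix.mul_one, ← hSB'] at this
    rw [← this, Matrix.smul_mul, Matrix.smul_mul, Matrix.mul_smul, Matrix.mul_assoc]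
  obtain ⟨T, hT⟩ : ∃ T, T = c • (θᴴ * io α y) := ⟨_, rfl⟩
  rw [← hT] at h3
  obtain ⟨x, hx⟩ := exists_form_ne hF hy
  have h4 : ((hermForm b F q ((s • B - 1) *ᵥ y) x)⁻¹ • ((io α x)ᴴ * θ)) * T = 1 := by
    rw [Matrix.smul_mul, Matrix.mul_assoc, ← h3, ioH_io hs, smul_smul, inv_mul_cancel₀ hx, one_smul]
  have h5 := mul_eq_one_comm.1 h4
  apply h.pure_of_map hs hsc hF hb hG hw0 hw hy (S := (hermForm b F q ((s • B - 1) *ᵥ y) x)⁻¹ •
    ((io α x)ᴴ * θ))
  rw [h3, Matrix.mul_assoc, h5, Matrix.mul_one, hθ]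

end Cfsg.Agent.UTP
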