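import Mathlib
import Cfsg.Agent.UTP.Pure

set_option autoImplicit false
set_option linter.unusedSectionVars false
set_option linter.unusedVariables false

/-!
A fixed point counting lemma and special unitary `p`-elements.
-/

namespace Cfsg.Agent.UTP

open scoped Matrix Kronecker
open Cfsg.Agent.Uni Module
open Matrix (GeneralLinearGroup)

/-- Sums over a set on which `y` acts freely except for one fixed point. -/
theorem sum_eq_of_free {Γ Ω M : Type*} [Group Γ] [MulAction Γ Ω] [Fintype Ω] [AddCommGroup M]
    (y : Γ) (m : ℕ) (hmpos : 0 < m) (hm : y ^ m = 1) (ω₀ : Ω) (h0 : y • ω₀ = ω₀)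
    (hfree : ∀ ω, ω ≠ ω₀ → ∀ i, 0 < i → i < m → y ^ i • ω ≠ ω) (f : Ω → M)
    (hsum : ∀ ω, ∑ i ∈ Finset.range m, f (y ^ i • ω) = 0) : ∑ ω, f ω = f ω₀ := by
  classical
  have key : ∀ S : Finset Ω, ω₀ ∉ S → (∀ ω ∈ S, y • ω ∈ S) → ∑ ω ∈ S, f ω = 0 := by
    intro S
    induction S using Finset.strongInduction with
    | H S ih =>
      intro hS hcl
      by_cases hne : S = ∅
      · rw [hne, Finset.sum_empty]
      obtain ⟨ω, hω⟩ := Finset.nonempty_iff_ne_empty.2 hne
      have hcl' : ∀ i : ℕ, y ^ i • ω ∈ S := by
        intro i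
        induction i with
        | zero => rwa [pow_zero, one_smul]
        | succ i ih' => rw [pow_succ', mul_smul]; exact hcl _ ih'
      set O : Finset Ω := (Finset.range m).image fun i => y ^ i • ω with hO
      have hOS : O ⊆ S := by
        intro x hx
        obtain ⟨i, -, rfl⟩ := Finset.mem_image.1 hx
        exact hcl' i
      have hinj : Set.InjOn (fun i => y ^ i • ω) (Finset.range m : Finset ℕ) := by
        intro i hi j hj hij
        have hi' : i < m := Finset.mem_range.1 hi
        have hj' : j < m := Finset.mem_range.1 hj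
        have hij' : y ^ i • ω = y ^ j • ω := hij
        have aux : ∀ i j : ℕ, i < j → j < m → y ^ i • ω = y ^ j • ω → False := by
          intro i j hlt hj h
          refine hfree ω (fun h => hS (h ▸ hω)) (j - i) (by omega) (by omega) ?_
          have h2 : y ^ j = y ^ i * y ^ (j - i) := by rw [← pow_add]; congr 1; omega
          rw [h2, mul_smul] at h
          exact (MulAction.injective (y ^ i) h).symm
        rcases lt_trichotomy i j with h | h | h
        · exact (aux i j h hj' hij').elim
        · exact h
        · exact (aux j i h hi' hij'.symm).elim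
      have h1 : ∑ x ∈ O, f x = 0 := by
        rw [hO, Finset.sum_image hinj]
        exact hsum ω
      have hωO : ω ∈ O := by
        rw [hO, Finset.mem_image]
        exact ⟨0, Finset.mem_range.2 hmpos, by rw [pow_zero, one_smul]⟩
      have h2 : ∑ x ∈ S \ O, f x = 0 := by
        apply ih
        · exact Finset.ssubset_iff_subset_ne.2 ⟨Finset.sdiff_subset, fun h => by
            have : ω ∈ S \ O := by rw [h]; exact hω
            exact (Finset.mem_sdiff.1 this).2 hωO⟩
        · exact fun h => hS (Finset.mem_sdiff.1 h).1
        · intro x hx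
          obtain ⟨hxS, hxO⟩ := Finset.mem_sdiff.1 hx
          refine Finset.mem_sdiff.2 ⟨hcl x hxS, fun h => hxO ?_⟩
          obtain ⟨i, hi, hix⟩ := Finset.mem_image.1 h
          have hix' : y ^ i • ω = y • x := hix
          rw [hO, Finset.mem_image]
          rcases Nat.eq_zero_or_pos i with h0 | hpos
          · subst h0
            refine ⟨m - 1, Finset.mem_range.2 (by omega), ?_⟩
            rw [pow_zero, one_smul] at hix'
            have : y • (y ^ (m - 1) • ω) = y • x := by
              rw [← mul_smul, ← pow_succ', Nat.sub_add_cancel hmpos, hm, one_smul, hix']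
            exact MulAction.injective y this
          · refine ⟨i - 1, Finset.mem_range.2 (by have := Finset.mem_range.1 hi; omega), ?_⟩
            have : y • (y ^ (i - 1) • ω) = y • x := by
              rw [← mul_smul, ← pow_succ', Nat.sub_add_cancel hpos, hix']
            exact MulAction.injective y this
      rw [← Finset.sum_sdiff hOS, h1, h2, add_zero]
  rw [← Finset.add_sum_erase Finset.univ f (Finset.mem_univ ω₀), key, add_zero]
  · simp
  · intro ω hω
    rw [Finset.mem_erase] at hω ⊢
    refine ⟨fun h => hω.1 ?_, Finset.mem_univ _⟩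
    rw [← h0] at h
    exact MulAction.injective y h

variable {F : Type*} [Field F] [Fintype F] {q b : ℕ}

/-- Special `p`-elements. -/
def IsSpec (q : ℕ) (w e : Fin b → F) (s : SU b F q) (m : ℕ) : Prop :=
  0 < m ∧ s ^ m = 1 ∧ (∀ x, hermForm b F q x w = 0 → hermForm b F q x e = 0 → act s x = x) ∧
  (∀ x : Fin b → F, ∑ i ∈ Finset.range m, act (s ^ i) x = 0) ∧
  ∀ i, 0 < i → i < m → ∃ (k : ℕ) (c : F), c ≠ 0 ∧ IsEich ((s ^ i) ^ k) w 0 c

theorem eich_pow (hF : Fintype.card F = q ^ 2) {w : Fin b → F} (hw : hermForm b F q w w = 0)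
    {s : SU b F q} {c : F} (h : IsEich s w 0 c) (i : ℕ) : IsEich (s ^ i) w 0 (i * c) := by
  induction i with
  | zero =>
    rw [pow_zero, Nat.cast_zero, zero_mul]
    exact isEich_one hF w
  | succ i ih =>
    rw [pow_succ]
    have h1 := ih.mul hF hw (hermForm_zero_right hF w) (hermForm_zero_right hF w) h
    rw [add_zero, hermForm_zero_right hF, sub_zero] at h1
    convert h1 using 1
    push_cast; ring

theorem exists_spec (hF : Fintype.card F = q ^ 2) {w e : Fin b → F} (hw0 : w ≠ 0)
    (hw : hermForm b F q w w = 0) (he : hermForm b F q e e ≠ 0) (hwe : hermForm b F q w e = 0) :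
    ∃ (s : SU b F q) (m : ℕ), IsSpec q w e s m := by
  obtain ⟨p, hp⟩ := CharP.exists F
  have hpp : p.Prime := by
    rcases CharP.char_is_prime_or_zero F p with h | h
    · exact h
    · subst h
      have := CharP.charP_to_charZero F
      exact (not_injective_infinite_finite (Nat.cast : ℕ → F) Nat.cast_injective).elim
  have hpow : ∀ {s : SU b F q} {c : F}, IsEich s w 0 c → ∀ x, act s x = x + (c * hermForm b F q x w) • w := by
    intro s c h x
    rw [h x, hermForm_zero_right hF, smul_zero, zero_smul]
    abel_nf
  rcases hpp.eq_two_or_odd' with h2 | hodd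
  · -- characteristic two
    subst h2
    obtain ⟨τ, s, hτ, hs⟩ := exists_eich' hF w e hw hwe
    have hself : ∀ v : F, v + v = 0 := fun v => CharTwo.add_self_eq_zero v
    have hselfv : ∀ v : Fin b → F, v + v = 0 := by
      intro v; ext i; exact hself _
    have h2' : IsEich (s ^ 2) w 0 (-hermForm b F q e e) := by
      have h1 := hs.mul hF hw hwe hwe hs
      rw [hselfv, hself, zero_sub] at h1
      rwa [pow_two]
    have h4 : s ^ 4 = 1 := by
      have h1 := eich_pow hF hw h2' 2
      rw [← pow_mul] at h1
      have : ((2 : ℕ) : F) * (-hermForm b F q e e) = 0 := by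
        rw [CharP.cast_eq_zero, zero_mul]
      rw [this] at h1
      exact h1.unique (isEich_one hF w)
    have hne : -hermForm b F q e e ≠ 0 := neg_ne_zero.2 he
    have hsx : ∀ x, hermForm b F q x w = 0 → hermForm b F q x e = 0 → act s x = x := by
      intro x h1 h2
      rw [hs x, h1, h2]
      simp
    refine ⟨s, 4, by norm_num, h4, hsx, ?_, ?_⟩
    · intro x
      rw [Finset.sum_range_succ, Finset.sum_range_succ, Finset.sum_range_succ, Finset.sum_range_one,
        pow_zero, act_one, pow_one]
      have e3 : s ^ 3 = s * s ^ 2 := by rw [← pow_succ']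
      have hww : act s w = w := hsx w hw hwe
      rw [e3, act_mul, hpow h2', act_add, act_smul, hww]
      have e4 : x + act s x + (x + (-hermForm b F q e e * hermForm b F q x w) • w) +
          (act s x + (-hermForm b F q e e * hermForm b F q x w) • w) =
          (x + x) + (act s x + act s x) + ((-hermForm b F q e e * hermForm b F q x w) • w +
            (-hermForm b F q e e * hermForm b F q x w) • w) := by abel
      rw [e4, hselfv x, hselfv (act s x), zero_add, zero_add, hselfv]
    · intro i hi0 hi4
      obtain rfl | rfl | rfl : i = 1 ∨ i = 2 ∨ i = 3 := by omega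
      · exact ⟨2, _, hne, by rwa [pow_one]⟩
      · exact ⟨1, _, hne, by rwa [pow_one]⟩
      · refine ⟨2, _, hne, ?_⟩
        have : (s ^ 3) ^ 2 = s ^ 2 := by
          rw [← pow_mul]
          calc s ^ (3 * 2) = s ^ 4 * s ^ 2 := by rw [← pow_add]
            _ = s ^ 2 := by rw [h4, one_mul]
        rwa [this]
  · obtain ⟨c, hc0, hc⟩ := exists_skew hF
    obtain ⟨s, hs⟩ := exists_eich hF w 0 c hw (hermForm_zero_right hF w)
      (by rw [hermForm_zero_right hF, hc]; ring)
    refine ⟨s, p, hpp.pos, ?_, ?_, ?_, ?_⟩
    · have h1 := eich_pow hF hw hs p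
      rw [CharP.cast_eq_zero, zero_mul] at h1
      exact h1.unique (isEich_one hF w)
    · intro x h1 _
      rw [hpow hs, h1]; simp
    · intro x
      have h1 : ∀ i ∈ Finset.range p, act (s ^ i) x = x + (i : F) • ((c * hermForm b F q x w) • w) := by
        intro i _
        rw [hpow (eich_pow hF hw hs i), smul_smul, mul_assoc]
      rw [Finset.sum_congr rfl h1, Finset.sum_add_distrib, Finset.sum_const, Finset.card_range,
        ← Finset.sum_smul, ← Nat.cast_smul_eq_nsmul F, CharP.cast_eq_zero, zero_smul, zero_add]
      have h2 : ∑ i ∈ Finset.range p, (i : F) = 0 := by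
        rw [← Nat.cast_sum, Finset.sum_range_id, CharP.cast_eq_zero_iff F p]
        obtain ⟨k, hk⟩ := hodd
        have : p * (p - 1) / 2 = p * k := by
          rw [hk]
          have : (2 * k + 1) * (2 * k + 1 - 1) = 2 * ((2 * k + 1) * k) := by
            rw [Nat.add_sub_cancel]; ring
          rw [this, Nat.mul_div_cancel_left _ (by norm_num)]
        rw [this]
        exact dvd_mul_right _ _
      rw [h2, zero_smul]
    · intro i hi0 hip
      refine ⟨1, i * c, mul_ne_zero ?_ hc0, by rw [pow_one]; exact eich_pow hF hw hs i⟩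
      intro h
      rw [CharP.cast_eq_zero_iff F p] at h
      exact absurd (Nat.le_of_dvd hi0 h) (by omega)

end Cfsg.Agent.UTP
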