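import Mathlib
import Cfsg.Agent.UTP.Trace1

set_option autoImplicit false
set_option linter.unusedSectionVars false
set_option linter.unusedVariables false

/-!
Averaging the partial trace over the cosets of the pure subgroup.
-/

namespace Cfsg.Agent.UTP

open scoped Matrix Kronecker
open Cfsg.Agent.Uni Module
open Matrix (GeneralLinearGroup)

variable {F : Type*} [Field F] [Fintype F] [StarRing F] {q b : ℕ}
variable {α : Type*} [Fintype α] [DecidableEq α]
variable {K : Subgroup (GL (α × Fin b) F)}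

/-- Partial trace. -/
def trW (X : Matrix (α × Fin b) (α × Fin b) F) : Matrix α α F :=
  Matrix.of fun i i' => ∑ j, X (i, j) (i', j)

theorem trW_add (X Y : Matrix (α × Fin b) (α × Fin b) F) : trW (X + Y) = trW X + trW Y := by
  ext i i'
  simp [trW, Finset.sum_add_distrib]

theorem trW_smul (c : F) (X : Matrix (α × Fin b) (α × Fin b) F) : trW (c • X) = c • trW X := by
  ext i i'
  simp [trW, Finset.mul_sum]

/-- `X ↦ tr_W(X) ⊗ 1`. -/
def pie (X : Matrix (α × Fin b) (α × Fin b) F) : Matrix (α × Fin b) (α × Fin b) F :=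
  trW X ⊗ₖ (1 : Matrix (Fin b) (Fin b) F)

theorem pie_add (X Y : Matrix (α × Fin b) (α × Fin b) F) : pie (X + Y) = pie X + pie Y := by
  rw [pie, trW_add, Matrix.add_kronecker]; rfl

theorem pie_smul (c : F) (X : Matrix (α × Fin b) (α × Fin b) F) : pie (c • X) = c • pie X := by
  rw [pie, trW_smul, Matrix.smul_kronecker]; rfl

theorem kron_single (i i' : α) (j j' : Fin b) :
    (Matrix.single (i, j) (i', j') 1 : Matrix (α × Fin b) (α × Fin b) F) =
      Matrix.single i i' 1 ⊗ₖ Matrix.single j j' 1 := by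
  ext ⟨k, l⟩ ⟨k', l'⟩
  simp only [Matrix.single, Matrix.of_apply, Matrix.kroneckerMap_apply, Prod.mk.injEq]
  by_cases h1 : i = k <;> by_cases h2 : i' = k' <;> by_cases h3 : j = l <;> by_cases h4 : j' = l' <;>
    simp [h1, h2, h3, h4]

theorem lin_ext {V : Type*} [AddCommGroup V] [Module F V]
    (f g : Matrix (α × Fin b) (α × Fin b) F →ₗ[F] V)
    (h : ∀ (A : Matrix α α F) (B : Matrix (Fin b) (Fin b) F), f (A ⊗ₖ B) = g (A ⊗ₖ B)) : f = g := by
  apply Matrix.ext_linearMap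
  rintro ⟨i, j⟩ ⟨i', j'⟩
  ext
  simp only [LinearMap.comp_apply]
  have := h (Matrix.single i i' 1) (Matrix.single j j' 1)
  rw [← kron_single] at this
  exact this

theorem trW_kron (A : Matrix α α F) (B : Matrix (Fin b) (Fin b) F) :
    trW (A ⊗ₖ B) = B.trace • A := by
  ext i i'
  simp only [trW, Matrix.of_apply, Matrix.kroneckerMap_apply, Matrix.smul_apply, Matrix.trace,
    Matrix.diag, smul_eq_mul, Finset.sum_mul]
  exact Finset.sum_congr rfl fun j _ => mul_comm _ _

theorem pie_kron (A : Matrix α α F) (B : Matrix (Fin b) (Fin b) F) :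
    pie (A ⊗ₖ B) = B.trace • (A ⊗ₖ (1 : Matrix (Fin b) (Fin b) F)) := by
  rw [pie, trW_kron, Matrix.smul_kronecker]

/-- The projection is equivariant for pure unitary matrices. -/
theorem pie_conj_pure [Nonempty α] {G : Matrix (α × Fin b) (α × Fin b) F} (hG : IsPure G)
    (hu : Gᴴ * G = 1) (X : Matrix (α × Fin b) (α × Fin b) F) :
    pie (G * X * Gᴴ) = G * pie X * Gᴴ := by
  obtain ⟨S, B, rfl⟩ := hG
  rcases Nat.eq_zero_or_pos b with hb | hb
  · subst hb
    ext ⟨i, j⟩
    exact j.elim0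
  haveI : NeZero b := ⟨by omega⟩
  rw [Matrix.conjTranspose_kronecker, ← Matrix.mul_kronecker_mul] at hu
  obtain ⟨i₀⟩ := ‹Nonempty α›
  obtain ⟨e, he⟩ : ∃ e, e = (Sᴴ * S) i₀ i₀ := ⟨_, rfl⟩
  have h1 : ∀ j j', e * (Bᴴ * B) j j' = if j = j' then 1 else 0 := by
    intro j j'
    have := congrFun (congrFun hu (i₀, j)) (i₀, j')
    rw [Matrix.kroneckerMap_apply, ← he, Matrix.one_apply] at this
    rw [this]
    by_cases h : j = j' <;> simp [h]
  have he0 : e ≠ 0 := by
    intro h0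
    have := h1 0 0
    rw [h0, zero_mul, if_pos rfl] at this
    exact zero_ne_one this
  have hB : Bᴴ * B = e⁻¹ • 1 := by
    ext j j'
    rw [Matrix.smul_apply, Matrix.one_apply, smul_eq_mul, ← h1 j j', ← mul_assoc,
      inv_mul_cancel₀ he0, one_mul]
  have hB' : B * Bᴴ = e⁻¹ • 1 := by
    have h2 : (e • Bᴴ) * B = 1 := by
      rw [Matrix.smul_mul, hB, smul_smul, mul_inv_cancel₀ he0, one_smul]
    have h3 := mul_eq_one_comm.1 h2
    rw [Matrix.mul_smul] at h3
    rw [← h3, smul_smul, inv_mul_cancel₀ he0, one_smul]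
  let f : Matrix (α × Fin b) (α × Fin b) F →ₗ[F] Matrix (α × Fin b) (α × Fin b) F :=
    { toFun := fun X => pie ((S ⊗ₖ B) * X * (S ⊗ₖ B)ᴴ)
      map_add' := fun X Y => by rw [Matrix.mul_add, Matrix.add_mul, pie_add]
      map_smul' := fun c X => by rw [Matrix.mul_smul, Matrix.smul_mul, pie_smul]; rfl }
  let g : Matrix (α × Fin b) (α × Fin b) F →ₗ[F] Matrix (α × Fin b) (α × Fin b) F :=
    { toFun := fun X => (S ⊗ₖ B) * pie X * (S ⊗ₖ B)ᴴ
      map_add' := fun X Y => by rw [pie_add, Matrix.mul_add, Matrix.add_mul]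
      map_smul' := fun c X => by rw [pie_smul, Matrix.mul_smul, Matrix.smul_mul]; rfl }
  have hfg : f = g := by
    apply lin_ext
    intro A C
    change pie ((S ⊗ₖ B) * (A ⊗ₖ C) * (S ⊗ₖ B)ᴴ) = (S ⊗ₖ B) * pie (A ⊗ₖ C) * (S ⊗ₖ B)ᴴ
    rw [Matrix.conjTranspose_kronecker, ← Matrix.mul_kronecker_mul, ← Matrix.mul_kronecker_mul,
      pie_kron, pie_kron, Matrix.mul_smul, Matrix.smul_mul, ← Matrix.mul_kronecker_mul,
      ← Matrix.mul_kronecker_mul, Matrix.mul_one, hB', Matrix.kronecker_smul, smul_smul]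
    congr 1
    rw [Matrix.trace_mul_comm, ← Matrix.mul_assoc, hB, Matrix.smul_mul, Matrix.one_mul,
      Matrix.trace_smul, smul_eq_mul, mul_comm]
  exact congrArg (fun φ => φ X) hfg

/-- The pure elements of `K`. -/
def pureSub (h : Ctx q K) : Subgroup K where
  carrier := {g | IsPure ((g : GL (α × Fin b) F) : Matrix (α × Fin b) (α × Fin b) F)}
  mul_mem' := by
    intro x y hx hy
    change IsPure (((x * y : K) : GL (α × Fin b) F) : Matrix (α × Fin b) (α × Fin b) F)
    rw [Subgroup.coe_mul, Units.val_mul]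
    exact IsPure.mul hx hy
  one_mem' := by
    change IsPure (((1 : K) : GL (α × Fin b) F) : Matrix (α × Fin b) (α × Fin b) F)
    rw [Subgroup.coe_one, Units.val_one]
    exact IsPure.one
  inv_mem' := by
    intro x hx
    change IsPure (((x⁻¹ : K) : GL (α × Fin b) F) : Matrix (α × Fin b) (α × Fin b) F)
    have h1 := h.uni x x.2
    have h2 : (((x⁻¹ : K) : GL (α × Fin b) F) : Matrix (α × Fin b) (α × Fin b) F) =
        ((x : GL (α × Fin b) F) : Matrix (α × Fin b) (α × Fin b) F)ᴴ := by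
      rw [Subgroup.coe_inv]
      calc (((x : GL (α × Fin b) F)⁻¹ : GL (α × Fin b) F) : Matrix (α × Fin b) (α × Fin b) F) =
          (((x : GL (α × Fin b) F) : Matrix (α × Fin b) (α × Fin b) F)ᴴ *
            ((x : GL (α × Fin b) F) : Matrix (α × Fin b) (α × Fin b) F)) *
            (((x : GL (α × Fin b) F)⁻¹ : GL (α × Fin b) F) : Matrix (α × Fin b) (α × Fin b) F) := by
            rw [h1, Matrix.one_mul]
        _ = _ := by
            rw [Matrix.mul_assoc, ← Units.val_mul, mul_inv_cancel, Units.val_one, Matrix.mul_one]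
    rw [h2]
    exact IsPure.conjT hx

theorem mem_pureSub {h : Ctx q K} {g : K} :
    g ∈ pureSub h ↔ IsPure ((g : GL (α × Fin b) F) : Matrix (α × Fin b) (α × Fin b) F) := Iff.rfl

/-- `g π(gᴴ X g) gᴴ`. -/
def phi (X : Matrix (α × Fin b) (α × Fin b) F) (G : Matrix (α × Fin b) (α × Fin b) F) :
    Matrix (α × Fin b) (α × Fin b) F :=
  G * pie (Gᴴ * X * G) * Gᴴ

theorem phi_mul_pure [Nonempty α] {G N : Matrix (α × Fin b) (α × Fin b) F} (hN : IsPure N)
    (hu : Nᴴ * N = 1) (X : Matrix (α × Fin b) (α × Fin b) F) : phi X (G * N) = phi X G := by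
  unfold phi
  have hu' : N * Nᴴ = 1 := mul_eq_one_comm.1 hu
  have h1 := pie_conj_pure (G := Nᴴ) hN.conjT (by rw [Matrix.conjTranspose_conjTranspose, hu'])
    (Gᴴ * X * G)
  rw [Matrix.conjTranspose_conjTranspose] at h1
  have h2 : (G * N)ᴴ * X * (G * N) = Nᴴ * (Gᴴ * X * G) * N := by
    rw [Matrix.conjTranspose_mul]
    simp only [Matrix.mul_assoc]
  rw [h2, h1, Matrix.conjTranspose_mul]
  have h3 : G * N * (Nᴴ * pie (Gᴴ * X * G) * N) * (Nᴴ * Gᴴ) =
      G * (N * Nᴴ) * pie (Gᴴ * X * G) * (N * Nᴴ) * Gᴴ := by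
    simp only [Matrix.mul_assoc]
  rw [h3, hu', Matrix.mul_one, Matrix.mul_one]

theorem phi_mul {G H : Matrix (α × Fin b) (α × Fin b) F} (X : Matrix (α × Fin b) (α × Fin b) F) :
    phi X (H * G) = H * phi (Hᴴ * X * H) G * Hᴴ := by
  unfold phi
  rw [Matrix.conjTranspose_mul]
  simp only [Matrix.mul_assoc]

theorem phi_add (X Y G : Matrix (α × Fin b) (α × Fin b) F) : phi (X + Y) G = phi X G + phi Y G := by
  unfold phi
  rw [Matrix.mul_add, Matrix.add_mul, pie_add, Matrix.mul_add, Matrix.add_mul]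

theorem phi_smul (c : F) (X G : Matrix (α × Fin b) (α × Fin b) F) : phi (c • X) G = c • phi X G := by
  unfold phi
  rw [Matrix.mul_smul, Matrix.smul_mul, pie_smul, Matrix.mul_smul, Matrix.smul_mul]

/-- `phi` on cosets. -/
noncomputable def phiq (h : Ctx q K) (X : Matrix (α × Fin b) (α × Fin b) F) (ω : K ⧸ pureSub h) :
    Matrix (α × Fin b) (α × Fin b) F :=
  phi X ((ω.out : GL (α × Fin b) F) : Matrix (α × Fin b) (α × Fin b) F)

theorem phiq_mk [Nonempty α] (h : Ctx q K) (X : Matrix (α × Fin b) (α × Fin b) F) (g : K) :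
    phiq h X (g : K ⧸ pureSub h) = phi X ((g : GL (α × Fin b) F) : Matrix (α × Fin b) (α × Fin b) F) := by
  obtain ⟨n, hn⟩ := QuotientGroup.mk_out_eq_mul (pureSub h) g
  unfold phiq
  rw [hn, Subgroup.coe_mul, Units.val_mul]
  exact phi_mul_pure (mem_pureSub.1 n.2) (h.uni _ (n : K).2) X

theorem phiq_smul [Nonempty α] (h : Ctx q K) (X : Matrix (α × Fin b) (α × Fin b) F) (y : K)
    (ω : K ⧸ pureSub h) : phiq h X (y • ω) =
      ((y : GL (α × Fin b) F) : Matrix (α × Fin b) (α × Fin b) F) *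
        phiq h (((y : GL (α × Fin b) F) : Matrix (α × Fin b) (α × Fin b) F)ᴴ * X *
          ((y : GL (α × Fin b) F) : Matrix (α × Fin b) (α × Fin b) F)) ω *
      ((y : GL (α × Fin b) F) : Matrix (α × Fin b) (α × Fin b) F)ᴴ := by
  obtain ⟨g, rfl⟩ := QuotientGroup.mk_surjective ω
  rw [← MulAction.Quotient.coe_smul_out, phiq_mk, phiq_mk, smul_eq_mul, Subgroup.coe_mul,
    Units.val_mul, phi_mul]
  congr 2
  exact (phiq_mk h _ _).symm.trans (by rw [QuotientGroup.out_eq']; exact phiq_mk h _ _)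

noncomputable instance (h : Ctx q K) : Fintype (K ⧸ pureSub h) := Fintype.ofFinite _

/-- The average. -/
noncomputable def PK (h : Ctx q K) (X : Matrix (α × Fin b) (α × Fin b) F) :
    Matrix (α × Fin b) (α × Fin b) F := ∑ ω : K ⧸ pureSub h, phiq h X ω

theorem PK_add (h : Ctx q K) (X Y : Matrix (α × Fin b) (α × Fin b) F) :
    PK h (X + Y) = PK h X + PK h Y := by
  unfold PK phiq
  rw [← Finset.sum_add_distrib]
  exact Finset.sum_congr rfl fun ω _ => phi_add _ _ _

theorem PK_smul (h : Ctx q K) (c : F) (X : Matrix (α × Fin b) (α × Fin b) F) :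
    PK h (c • X) = c • PK h X := by
  unfold PK phiq
  rw [Finset.smul_sum]
  exact Finset.sum_congr rfl fun ω _ => phi_smul _ _ _

/-- `K`-equivariance. -/
theorem PK_conj [Nonempty α] (h : Ctx q K) {H : Matrix (α × Fin b) (α × Fin b) F} (hH : InK K H)
    (X : Matrix (α × Fin b) (α × Fin b) F) : PK h (H * X * Hᴴ) = H * PK h X * Hᴴ := by
  have hu := h.conjT_mul hH
  obtain ⟨g, hg, rfl⟩ := hH
  unfold PK
  rw [← Equiv.sum_comp (MulAction.toPerm (⟨g, hg⟩ : K)), Matrix.mul_sum, Matrix.sum_mul]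
  refine Finset.sum_congr rfl fun ω _ => ?_
  rw [MulAction.toPerm_apply, phiq_smul]
  congr 3
  change (g : Matrix (α × Fin b) (α × Fin b) F)ᴴ * ((g : Matrix (α × Fin b) (α × Fin b) F) * X *
    (g : Matrix (α × Fin b) (α × Fin b) F)ᴴ) * (g : Matrix (α × Fin b) (α × Fin b) F) = X
  have : (g : Matrix (α × Fin b) (α × Fin b) F)ᴴ * ((g : Matrix (α × Fin b) (α × Fin b) F) * X *
    (g : Matrix (α × Fin b) (α × Fin b) F)ᴴ) * (g : Matrix (α × Fin b) (α × Fin b) F) =
    ((g : Matrix (α × Fin b) (α × Fin b) F)ᴴ * (g : Matrix (α × Fin b) (α × Fin b) F)) * X *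
    ((g : Matrix (α × Fin b) (α × Fin b) F)ᴴ * (g : Matrix (α × Fin b) (α × Fin b) F)) := by
    simp only [Matrix.mul_assoc]
  rw [this, hu, Matrix.one_mul, Matrix.mul_one]

end Cfsg.Agent.UTP
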