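import Mathlib
import Cfsg.Agent.UTP.Trace2

set_option autoImplicit false
set_option linter.unusedSectionVars false
set_option linter.unusedVariables false
set_option linter.style.haveILetI false

/-!
The average is the partial trace; all elements are pure.
-/

namespace Cfsg.Agent.UTP

open scoped Matrix Kronecker
open Cfsg.Agent.Uni Module
open Matrix (GeneralLinearGroup)

variable {F : Type*} [Field F] [Fintype F] [StarRing F] {q b : ℕ}
variable {α : Type*} [Fintype α] [DecidableEq α]
variable {K : Subgroup (GL (α × Fin b) F)}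
variable (hs : ∀ x : F, star x = x ^ q)

theorem act_pow_fix {s : SU b F q} {x : Fin b → F} (hx : act s x = x) (i : ℕ) : act (s ^ i) x = x := by
  induction i with
  | zero => rw [pow_zero, act_one]
  | succ i ih => rw [pow_succ, act_mul, hx, ih]

include hs

theorem Ctx.PK_fix [Nonempty α] (h : Ctx q K) (hsc : Scal q K) (hF : Fintype.card F = q ^ 2)
    (hb : 4 ≤ b) (hcard : Fintype.card α < b) {w e : Fin b → F} (hw0 : w ≠ 0)
    (hw : hermForm b F q w w = 0) (he : hermForm b F q e e ≠ 0) (hwe : hermForm b F q w e = 0)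
    {x y z : Fin b → F} (hxw : hermForm b F q x w = 0) (hxe : hermForm b F q x e = 0)
    (hyw : hermForm b F q y w = 0) (hye : hermForm b F q y e = 0)
    (hzw : hermForm b F q z w = 0) (hze : hermForm b F q z e = 0) (A : Matrix α α F) :
    PK h (tt x A y) * io α z = pie (tt x A y) * io α z := by
  obtain ⟨s, m, hm0, hm1, hfix, hnorm, hroot⟩ := exists_spec hF hw0 hw he hwe
  obtain ⟨G, hG, hGp, hGw⟩ := h.su_pure hs s
  have hu := h.conjT_mul hG
  obtain ⟨g, hg, rfl⟩ := hG
  set G : Matrix (α × Fin b) (α × Fin b) F := (g : Matrix (α × Fin b) (α × Fin b) F) with hGdef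
  let k : K := ⟨g, hg⟩
  have hk : ∀ i : ℕ, (((k ^ i : K) : GL (α × Fin b) F) : Matrix (α × Fin b) (α × Fin b) F) = G ^ i := by
    intro i
    rw [Subgroup.coe_pow, Units.val_pow_eq_pow_val]
  have hGi : ∀ (i : ℕ) (v : Fin b → F), G ^ i * io α v = io α (act (s ^ i) v) := by
    intro i
    induction i with
    | zero => intro v; rw [pow_zero, pow_zero, Matrix.one_mul, act_one]
    | succ i ih => intro v; rw [pow_succ, pow_succ, Matrix.mul_assoc, hGw, ih, act_mul]
  have hui : ∀ i : ℕ, (G ^ i)ᴴ * G ^ i = 1 := by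
    intro i
    rw [← hk]
    exact h.uni _ (k ^ i : K).2
  have hfixi : ∀ {v : Fin b → F}, hermForm b F q v w = 0 → hermForm b F q v e = 0 → ∀ i : ℕ,
      (G ^ i)ᴴ * io α v = io α v := by
    intro v h1 h2 i
    have h3 : G ^ i * io α v = io α v := by rw [hGi, act_pow_fix (hfix v h1 h2)]
    calc (G ^ i)ᴴ * io α v = (G ^ i)ᴴ * (G ^ i * io α v) := by rw [h3]
      _ = io α v := by rw [← Matrix.mul_assoc, hui, Matrix.one_mul]
  have hXi : ∀ i : ℕ, (G ^ i)ᴴ * tt x A y * G ^ i = tt x A y := by
    intro i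
    have h1 : (G ^ i)ᴴ * tt x A y * G ^ i = ((G ^ i)ᴴ * io α x) * A * ((G ^ i)ᴴ * io α y)ᴴ := by
      unfold tt
      rw [Matrix.conjTranspose_mul, Matrix.conjTranspose_conjTranspose]
      simp only [Matrix.mul_assoc]
    rw [h1, hfixi hxw hxe, hfixi hyw hye]
    rfl
  have hsumG : ∑ i ∈ Finset.range m, G ^ i = 0 := by
    apply ext_io
    intro v
    rw [Matrix.zero_mul, Matrix.sum_mul, Finset.sum_congr rfl fun i _ => hGi i v]
    rw [← io_sum, hnorm, io_zero]
  have key := sum_eq_of_free (Γ := K) (Ω := K ⧸ pureSub h) (M := Matrix (α × Fin b) α F) k m hm0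
    (by
      apply Subtype.ext
      apply Units.ext
      rw [hk, Subgroup.coe_one, Units.val_one]
      apply ext_io
      intro v
      rw [hGi, hm1, act_one, Matrix.one_mul])
    ((1 : K) : K ⧸ pureSub h)
    (by
      change ((k * 1 : K) : K ⧸ pureSub h) = ((1 : K) : K ⧸ pureSub h)
      rw [mul_one, QuotientGroup.eq, mul_one]
      exact (pureSub h).inv_mem (mem_pureSub.2 hGp))
    (by
      intro ω hω i hi0 him hfx
      obtain ⟨r, rfl⟩ := QuotientGroup.mk_surjective ω
      apply hω
      obtain ⟨j, c, hc0, hc⟩ := hroot i hi0 him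
      have h1 : r⁻¹ * k ^ i * r ∈ pureSub h := by
        have : ((k ^ i * r : K) : K ⧸ pureSub h) = (r : K ⧸ pureSub h) := hfx
        rw [QuotientGroup.eq] at this
        have h2 := (pureSub h).inv_mem this
        have h3 : ((k ^ i * r)⁻¹ * r)⁻¹ = r⁻¹ * k ^ i * r := by group
        rwa [h3] at h2
      have h2 := (pureSub h).pow_mem h1 j
      have h3 : (r⁻¹ * k ^ i * r) ^ j = r⁻¹ * k ^ (i * j) * r := by
        rw [pow_mul]
        have := conj_pow (a := r⁻¹) (b := k ^ i) (i := j)
        rw [inv_inv] at this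
        exact this
      rw [h3, mem_pureSub, Subgroup.coe_mul, Subgroup.coe_mul, Units.val_mul, Units.val_mul, hk] at h2
      have hr := h.uni _ r.2
      have hri : (((r⁻¹ : K) : GL (α × Fin b) F) : Matrix (α × Fin b) (α × Fin b) F) =
          ((r : GL (α × Fin b) F) : Matrix (α × Fin b) (α × Fin b) F)ᴴ := by
        rw [Subgroup.coe_inv]
        calc (((r : GL (α × Fin b) F)⁻¹ : GL (α × Fin b) F) : Matrix (α × Fin b) (α × Fin b) F) =
            (((r : GL (α × Fin b) F) : Matrix (α × Fin b) (α × Fin b) F)ᴴ *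
              ((r : GL (α × Fin b) F) : Matrix (α × Fin b) (α × Fin b) F)) *
              (((r : GL (α × Fin b) F)⁻¹ : GL (α × Fin b) F) : Matrix (α × Fin b) (α × Fin b) F) := by
              rw [hr, Matrix.one_mul]
          _ = _ := by
              rw [Matrix.mul_assoc, ← Units.val_mul, mul_inv_cancel, Units.val_one, Matrix.mul_one]
      have hrK : InK K (((r : GL (α × Fin b) F) : Matrix (α × Fin b) (α × Fin b) F)ᴴ) :=
        h.conjT_mem ⟨_, r.2, rfl⟩
      have hGij : G ^ (i * j) = 1 + tt w (c • (1 : Matrix α α F)) w := by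
        apply ext_io
        intro v
        rw [hGi, pow_mul, hc v, hermForm_zero_right hF, smul_zero, zero_smul, sub_zero, add_zero,
          io_add, io_smul, Matrix.add_mul, Matrix.one_mul, tt_mul_io hs, Matrix.mul_smul,
          Matrix.mul_one, smul_smul, mul_comm c]
      rw [hri, hGij] at h2
      have h4 := h.pure_of_conj hs hsc hF hb hcard hrK hw0 hw hc0
        (by rwa [Matrix.conjTranspose_conjTranspose])
      have h5 : r ∈ pureSub h := by
        have := h4.conjT
        rwa [Matrix.conjTranspose_conjTranspose] at this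
      rw [QuotientGroup.eq, mul_one]
      exact (pureSub h).inv_mem h5)
    (fun ω => phiq h (tt x A y) ω * io α z)
    (by
      intro ω
      have h1 : ∀ i ∈ Finset.range m, phiq h (tt x A y) (k ^ i • ω) * io α z =
          G ^ i * (phiq h (tt x A y) ω * io α z) := by
        intro i _
        rw [phiq_smul, hk, hXi, Matrix.mul_assoc, hfixi hzw hze, Matrix.mul_assoc]
      rw [Finset.sum_congr rfl h1, ← Matrix.sum_mul, hsumG, Matrix.zero_mul])
  unfold PK
  rw [Matrix.sum_mul, key, phiq_mk, Subgroup.coe_one, Units.val_one]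
  unfold phi
  rw [Matrix.conjTranspose_one, Matrix.one_mul, Matrix.one_mul, Matrix.mul_one, Matrix.mul_one]

/-- The difference. -/
noncomputable def DD (h : Ctx q K) (A : Matrix α α F) (x y z : Fin b → F) : Matrix (α × Fin b) α F :=
  (PK h (tt x A y) - pie (tt x A y)) * io α z

theorem DD_add1 (h : Ctx q K) (A : Matrix α α F) (x x' y z : Fin b → F) :
    DD h A (x + x') y z = DD h A x y z + DD h A x' y z := by
  unfold DD
  rw [tt_add_left, PK_add, pie_add, ← Matrix.add_mul]
  congr 1; abel

theorem DD_add2 (h : Ctx q K) (A : Matrix α α F) (x y y' z : Fin b → F) :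
    DD h A x (y + y') z = DD h A x y z + DD h A x y' z := by
  unfold DD
  rw [tt_add_right, PK_add, pie_add, ← Matrix.add_mul]
  congr 1; abel

theorem DD_smul1 (h : Ctx q K) (A : Matrix α α F) (c : F) (x y z : Fin b → F) :
    DD h A (c • x) y z = c • DD h A x y z := by
  unfold DD
  rw [tt_smul_left, PK_smul, pie_smul, ← Matrix.smul_mul, smul_sub]

theorem DD_smul2 (h : Ctx q K) (A : Matrix α α F) (c : F) (x y z : Fin b → F) :
    DD h A x (c • y) z = (c ^ q) • DD h A x y z := by
  unfold DD
  rw [tt_smul_right hs, PK_smul, pie_smul, ← Matrix.smul_mul, smul_sub]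

theorem Ctx.DD_fix [Nonempty α] (h : Ctx q K) (hsc : Scal q K) (hF : Fintype.card F = q ^ 2)
    (hb : 4 ≤ b) (hcard : Fintype.card α < b) {w e : Fin b → F} (hw0 : w ≠ 0)
    (hw : hermForm b F q w w = 0) (he : hermForm b F q e e ≠ 0) (hwe : hermForm b F q w e = 0)
    {x y z : Fin b → F} (hxw : hermForm b F q x w = 0) (hxe : hermForm b F q x e = 0)
    (hyw : hermForm b F q y w = 0) (hye : hermForm b F q y e = 0)
    (hzw : hermForm b F q z w = 0) (hze : hermForm b F q z e = 0) (A : Matrix α α F) :
    DD h A x y z = 0 := by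
  unfold DD
  rw [Matrix.sub_mul, h.PK_fix hs hsc hF hb hcard hw0 hw he hwe hxw hxe hyw hye hzw hze, sub_self]

end Cfsg.Agent.UTP
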