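import Mathlib
import Cfsg.Agent.UTP.Trace3

set_option autoImplicit false
set_option linter.unusedSectionVars false
set_option linter.unusedVariables false
set_option linter.style.haveILetI false

/-!
The average is the partial trace; all elements are pure.
-/

namespace Cfsg.Agent.UTP

open scoped Matrix Kronecker
open Cfsg.Agent.Uni Module
open Matrix (GeneralLinearGroup)

variable {F : Type*} [Field F] [Fintype F] [StarRing F] {q b : ℕ}
variable {α : Type*} [Fintype α] [DecidableEq α]
variable {K : Subgroup (GL (α × Fin b) F)}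
variable (hs : ∀ x : F, star x = x ^ q)

/-- Standard basis vectors. -/
def dl (F : Type*) [Field F] {b : ℕ} (j : Fin b) : Fin b → F := Pi.single j 1

theorem form_dl (hF : Fintype.card F = q ^ 2) (i j : Fin b) :
    hermForm b F q (dl F i) (dl F j) = if i = j then 1 else 0 := by
  unfold dl
  rw [hermForm_single_left]
  by_cases h : i = j
  · subst h; simp
  · have := two_le_q hF
    simp [h, Pi.single_eq_of_ne h, zero_pow (by omega : q ≠ 0)]

theorem exists_one_of_card {b : ℕ} (hb : 4 ≤ b) (S : Finset (Fin b)) (hS : S.card ≤ 3) :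
    ∃ l, l ∉ S := by
  have h1 : 0 < (Sᶜ).card := by
    rw [Finset.card_compl, Fintype.card_fin]; omega
  obtain ⟨l, hl⟩ := Finset.card_pos.1 h1
  exact ⟨l, by simpa using hl⟩

include hs

theorem DD_add3 (h : Ctx q K) (A : Matrix α α F) (x y z z' : Fin b → F) :
    DD h A x y (z + z') = DD h A x y z + DD h A x y z' := by
  unfold DD
  rw [io_add, Matrix.mul_add]

theorem DD_smul3 (h : Ctx q K) (A : Matrix α α F) (c : F) (x y z : Fin b → F) :
    DD h A x y (c • z) = c • DD h A x y z := by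
  unfold DD
  rw [io_smul, Matrix.mul_smul]

/-- three indices, two of them different, in the span of `w` and a basis vector -/
theorem Ctx.DD_pre [Nonempty α] (h : Ctx q K) (hsc : Scal q K) (hF : Fintype.card F = q ^ 2)
    (hb : 4 ≤ b) (hcard : Fintype.card α < b) (A : Matrix α α F) {j k m : Fin b} (hjk : j ≠ k) (hjm : j ≠ m)
    (hkm : k ≠ m) {μ : F} (hμ : μ ^ (q + 1) = -1) :
    DD h A (dl F j + μ • dl F m) (dl F k) (dl F k) = 0 ∧ DD h A (dl F k) (dl F j + μ • dl F m) (dl F k) = 0 ∧
      DD h A (dl F k) (dl F k) (dl F j + μ • dl F m) = 0 ∧ DD h A (dl F k) (dl F k) (dl F k) = 0 := by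
  obtain ⟨l, hl⟩ := exists_one_of_card hb {j, k, m} Finset.card_le_three
  simp only [Finset.mem_insert, Finset.mem_singleton, not_or] at hl
  have hww : hermForm b F q (dl F j + μ • dl F m) (dl F j + μ • dl F m) = 0 := by
    rw [hermForm_add_left, hermForm_smul_left, hermForm_add_right hF, hermForm_add_right hF,
      hermForm_smul_right, hermForm_smul_right, form_dl hF, form_dl hF, form_dl hF, form_dl hF,
      if_pos rfl, if_pos rfl, if_neg hjm, if_neg (Ne.symm hjm)]
    rw [pow_succ'] at hμ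
    rw [mul_zero, add_zero, mul_one, zero_add, hμ, add_neg_cancel]
  have hfe : ∀ t : Fin b, t ≠ l → hermForm b F q (dl F t) (dl F l) = 0 := by
    intro t ht
    rw [form_dl hF, if_neg ht]
  have hwl : hermForm b F q (dl F j + μ • dl F m) (dl F l) = 0 := by
    rw [hermForm_add_left, hermForm_smul_left, hfe _ (Ne.symm hl.1), hfe _ (Ne.symm hl.2.2)]
    simp
  have hkw : hermForm b F q (dl F k) (dl F j + μ • dl F m) = 0 := by
    rw [hermForm_add_right hF, hermForm_smul_right, form_dl hF, form_dl hF, if_neg (Ne.symm hjk), if_neg hkm]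
    simp
  have hkl := hfe k (Ne.symm hl.2.1)
  have hw0 : dl F j + μ • dl F m ≠ 0 := by
    intro h0
    have := congrFun h0 j
    simp [dl, Pi.single_eq_of_ne hjm] at this
  have hll : hermForm b F q (dl F l) (dl F l) ≠ 0 := by rw [form_dl hF, if_pos rfl]; exact one_ne_zero
  exact ⟨h.DD_fix hs hsc hF hb hcard hw0 hww hll hwl hww hwl hkw hkl hkw hkl A,
    h.DD_fix hs hsc hF hb hcard hw0 hww hll hwl hkw hkl hww hwl hkw hkl A,
    h.DD_fix hs hsc hF hb hcard hw0 hww hll hwl hkw hkl hkw hkl hww hwl A,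
    h.DD_fix hs hsc hF hb hcard hw0 hww hll hwl hkw hkl hkw hkl hkw hkl A⟩

theorem two_roots (hF : Fintype.card F = q ^ 2) {M : Type*} [AddCommGroup M] [Module F M] {X Y : M}
    (hXY : ∀ μ : F, μ ^ (q + 1) = -1 → X + μ • Y = 0) : X = 0 ∧ Y = 0 := by
  obtain ⟨ν, hν⟩ := exists_norm_neg_one hF (F := F) (q := q)
  obtain ⟨ζ, hζ, hζ2⟩ := exists_norm_one_sq_ne (F := F) hF
  have hq := two_le_q hF
  have hν0 : ν ≠ 0 := by
    intro h0
    rw [h0, zero_pow (by omega)] at hν
    exact one_ne_zero (neg_eq_zero.1 hν.symm)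
  have k1 := hXY ν hν
  have k2 := hXY (ζ * ν) (by rw [mul_pow, hζ, hν, one_mul])
  have k3 : ((ζ - 1) * ν) • Y = 0 := by
    have e : ((ζ - 1) * ν) • Y = (X + (ζ * ν) • Y) - (X + ν • Y) := by module
    rw [e, k1, k2, sub_zero]
  have hζ1 : ζ ≠ 1 := by
    rintro rfl
    exact hζ2 (one_pow 2)
  have hY : Y = 0 := (smul_eq_zero.1 k3).resolve_left (mul_ne_zero (sub_ne_zero.2 hζ1) hν0)
  rw [hY, smul_zero, add_zero] at k1
  exact ⟨k1, hY⟩

theorem two_roots' (hF : Fintype.card F = q ^ 2) {M : Type*} [AddCommGroup M] [Module F M] {X Y : M}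
    (hXY : ∀ μ : F, μ ^ (q + 1) = -1 → X + μ ^ q • Y = 0) : X = 0 ∧ Y = 0 := by
  obtain ⟨ν, hν⟩ := exists_norm_neg_one hF (F := F) (q := q)
  obtain ⟨ζ, hζ, hζ2⟩ := exists_norm_one_sq_ne (F := F) hF
  have hq := two_le_q hF
  have hν0 : ν ≠ 0 := by
    intro h0
    rw [h0, zero_pow (by omega)] at hν
    exact one_ne_zero (neg_eq_zero.1 hν.symm)
  have k1 := hXY ν hν
  have k2 := hXY (ζ * ν) (by rw [mul_pow, hζ, hν, one_mul])
  have k3 : ((ζ ^ q - 1) * ν ^ q) • Y = 0 := by
    have e : ((ζ ^ q - 1) * ν ^ q) • Y = (X + (ζ * ν) ^ q • Y) - (X + ν ^ q • Y) := by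
      rw [mul_pow]
      module
    rw [e, k1, k2, sub_zero]
  have hζ1 : ζ ^ q ≠ 1 := by
    intro h1
    rw [pow_succ, h1, one_mul] at hζ
    exact hζ2 (by rw [hζ, one_pow])
  have hY : Y = 0 := (smul_eq_zero.1 k3).resolve_left (mul_ne_zero (sub_ne_zero.2 hζ1) (pow_ne_zero _ hν0))
  rw [hY, smul_zero, add_zero] at k1
  exact ⟨k1, hY⟩

/-- Basis vectors with at most two different indices. -/
theorem Ctx.DD_two' [Nonempty α] (h : Ctx q K) (hsc : Scal q K) (hF : Fintype.card F = q ^ 2)
    (hb : 4 ≤ b) (hcard : Fintype.card α < b) (A : Matrix α α F) (j k : Fin b) (hjk : j ≠ k) :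
    DD h A (dl F j) (dl F k) (dl F k) = 0 ∧ DD h A (dl F k) (dl F j) (dl F k) = 0 ∧
      DD h A (dl F k) (dl F k) (dl F j) = 0 ∧ DD h A (dl F k) (dl F k) (dl F k) = 0 := by
  obtain ⟨m, hm⟩ := exists_one_of_card hb {j, k} (Finset.card_le_two.trans (by norm_num))
  simp only [Finset.mem_insert, Finset.mem_singleton, not_or] at hm
  have key := fun (μ : F) (hμ : μ ^ (q + 1) = -1) =>
    h.DD_pre hs hsc hF hb hcard A hjk (Ne.symm hm.1) (Ne.symm hm.2) hμ
  obtain ⟨ν, hν⟩ := exists_norm_neg_one hF (F := F) (q := q)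
  refine ⟨(two_roots hs hF (Y := DD h A (dl F m) (dl F k) (dl F k)) fun μ hμ => ?_).1,
    (two_roots' hs hF (Y := DD h A (dl F k) (dl F m) (dl F k)) fun μ hμ => ?_).1,
    (two_roots hs hF (Y := DD h A (dl F k) (dl F k) (dl F m)) fun μ hμ => ?_).1, (key ν hν).2.2.2⟩
  · have := (key μ hμ).1
    rwa [DD_add1 hs, DD_smul1 hs] at this
  · have := (key μ hμ).2.1
    rwa [DD_add2 hs, DD_smul2 hs] at this
  · have := (key μ hμ).2.2.1
    rwa [DD_add3 hs, DD_smul3 hs] at this

theorem Ctx.DD_two [Nonempty α] (h : Ctx q K) (hsc : Scal q K) (hF : Fintype.card F = q ^ 2)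
    (hb : 4 ≤ b) (hcard : Fintype.card α < b) (A : Matrix α α F) (j k i : Fin b)
    (h2 : j = k ∨ j = i ∨ k = i) : DD h A (dl F j) (dl F k) (dl F i) = 0 := by
  haveI : NeZero b := ⟨by omega⟩
  by_cases hall : j = k ∧ k = i
  · obtain ⟨rfl, rfl⟩ := hall
    obtain ⟨m, hm⟩ := exists_one_of_card hb {j} (by rw [Finset.card_singleton]; omega)
    rw [Finset.mem_singleton] at hm
    exact (h.DD_two' hs hsc hF hb hcard A m j hm).2.2.2
  · rcases h2 with rfl | rfl | rfl
    · exact (h.DD_two' hs hsc hF hb hcard A i j (fun h0 => hall ⟨rfl, h0.symm⟩)).2.2.1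
    · exact (h.DD_two' hs hsc hF hb hcard A k j (fun h0 => hall ⟨h0.symm, h0⟩)).2.1
    · exact (h.DD_two' hs hsc hF hb hcard A j k (fun h0 => hall ⟨h0, rfl⟩)).1

theorem Ctx.DD_all [Nonempty α] (h : Ctx q K) (hsc : Scal q K) (hF : Fintype.card F = q ^ 2)
    (hb : 4 ≤ b) (hcard : Fintype.card α < b) (A : Matrix α α F) (j k i : Fin b) :
    DD h A (dl F j) (dl F k) (dl F i) = 0 := by
  by_cases hij : i = j
  · subst hij
    exact h.DD_two hs hsc hF hb hcard A _ _ _ (Or.inr (Or.inl rfl))
  by_cases hik : i = k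
  · subst hik
    exact h.DD_two hs hsc hF hb hcard A _ _ _ (Or.inr (Or.inr rfl))
  by_cases hjk : j = k
  · subst hjk
    exact h.DD_two hs hsc hF hb hcard A _ _ _ (Or.inl rfl)
  have hq := two_le_q hF
  obtain ⟨ν, hν⟩ := exists_norm_neg_one hF (F := F) (q := q)
  obtain ⟨ζ, hζ, hζ2⟩ := exists_norm_one_sq_ne (F := F) hF
  have hν0 : ν ≠ 0 := by
    intro h0
    rw [h0, zero_pow (by omega)] at hν
    exact one_ne_zero (neg_eq_zero.1 hν.symm)
  obtain ⟨l, hl⟩ := exists_one_of_card hb {j, k, i} Finset.card_le_three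
  simp only [Finset.mem_insert, Finset.mem_singleton, not_or] at hl
  have hfe : ∀ t : Fin b, t ≠ l → hermForm b F q (dl F t) (dl F l) = 0 := by
    intro t ht
    rw [form_dl hF, if_neg ht]
  have key : ∀ μ : F, μ ^ (q + 1) = -1 →
      μ ^ q • DD h A (dl F j) (dl F k) (dl F i) + μ • DD h A (dl F k) (dl F j) (dl F i) = 0 := by
    intro μ hμ
    have hww : hermForm b F q (dl F j + μ • dl F k) (dl F j + μ • dl F k) = 0 := by
      rw [hermForm_add_left, hermForm_smul_left, hermForm_add_right hF, hermForm_add_right hF,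
        hermForm_smul_right, hermForm_smul_right, form_dl hF, form_dl hF, form_dl hF, form_dl hF,
        if_pos rfl, if_pos rfl, if_neg hjk, if_neg (Ne.symm hjk)]
      rw [pow_succ'] at hμ
      rw [mul_zero, add_zero, mul_one, zero_add, hμ, add_neg_cancel]
    have hwl : hermForm b F q (dl F j + μ • dl F k) (dl F l) = 0 := by
      rw [hermForm_add_left, hermForm_smul_left, hfe _ (Ne.symm hl.1), hfe _ (Ne.symm hl.2.1)]
      simp
    have hiw : hermForm b F q (dl F i) (dl F j + μ • dl F k) = 0 := by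
      rw [hermForm_add_right hF, hermForm_smul_right, form_dl hF, form_dl hF, if_neg hij, if_neg hik]
      simp
    have h1 := h.DD_fix hs hsc hF (by omega) hcard (w := dl F j + μ • dl F k) (e := dl F l) (by
        intro h0
        have := congrFun h0 j
        simp [dl, Pi.single_eq_of_ne hjk] at this) hww
      (by rw [form_dl hF, if_pos rfl]; exact one_ne_zero) hwl hww hwl hww hwl hiw
      (hfe _ (Ne.symm hl.2.2)) A
    rw [DD_add1 hs, DD_add2 hs, DD_add2 hs, DD_smul1 hs, DD_smul1 hs, DD_smul2 hs, DD_smul2 hs,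
      h.DD_two hs hsc hF hb hcard A j j i (Or.inl rfl),
      h.DD_two hs hsc hF hb hcard A k k i (Or.inl rfl)] at h1
    rw [smul_zero, smul_zero, add_zero, zero_add] at h1
    exact h1
  have k1 := key ν hν
  have k2 := key (ζ * ν) (by rw [mul_pow, hζ, hν, one_mul])
  have hζ0 : ζ ≠ 0 := by
    intro h0
    rw [h0, zero_pow (by omega)] at hζ
    exact zero_ne_one hζ
  -- combine
  have k3 : ((ζ ^ q - ζ) * ν ^ q) • DD h A (dl F j) (dl F k) (dl F i) = 0 := by
    have e : ((ζ ^ q - ζ) * ν ^ q) • DD h A (dl F j) (dl F k) (dl F i) =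
        ((ζ * ν) ^ q • DD h A (dl F j) (dl F k) (dl F i) + (ζ * ν) • DD h A (dl F k) (dl F j) (dl F i)) -
        ζ • (ν ^ q • DD h A (dl F j) (dl F k) (dl F i) + ν • DD h A (dl F k) (dl F j) (dl F i)) := by
      rw [mul_pow]
      module
    rw [e, k1, k2, smul_zero, sub_zero]
  refine (smul_eq_zero.1 k3).resolve_left ?_
  refine mul_ne_zero ?_ (pow_ne_zero _ hν0)
  intro h0
  apply hζ2
  have h1 : ζ ^ q = ζ := sub_eq_zero.1 h0
  rw [pow_succ, h1] at hζ
  rw [sq, hζ]

theorem Ctx.PK_eq [Nonempty α] (h : Ctx q K) (hsc : Scal q K) (hF : Fintype.card F = q ^ 2)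
    (hb : 4 ≤ b) (hcard : Fintype.card α < b) (X : Matrix (α × Fin b) (α × Fin b) F) :
    PK h X = pie X := by
  have hio : ∀ w : Fin b → F, io α w = ∑ j, w j • io α (dl F j) := by
    intro w
    have : w = ∑ j, w j • dl F j := by
      ext k
      rw [Finset.sum_apply, Finset.sum_eq_single k]
      · simp [dl]
      · intro l _ hl
        simp [dl, Pi.single_eq_of_ne (Ne.symm hl)]
      · intro h; exact absurd (Finset.mem_univ _) h
    conv_lhs => rw [this]
    rw [io_sum]
    exact Finset.sum_congr rfl fun j _ => io_smul _ _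
  have h1 : ∀ (A : Matrix α α F) (j k : Fin b), PK h (tt (dl F j) A (dl F k)) = pie (tt (dl F j) A (dl F k)) := by
    intro A j k
    apply ext_io
    intro w
    have h2 : (PK h (tt (dl F j) A (dl F k)) - pie (tt (dl F j) A (dl F k))) * io α w = 0 := by
      rw [hio w, Matrix.mul_sum]
      apply Finset.sum_eq_zero
      intro i _
      rw [Matrix.mul_smul]
      have := h.DD_all hs hsc hF hb hcard A j k i
      unfold DD at this
      rw [this, smul_zero]
    rw [Matrix.sub_mul] at h2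
    exact sub_eq_zero.1 h2
  let f : Matrix (α × Fin b) (α × Fin b) F →ₗ[F] Matrix (α × Fin b) (α × Fin b) F :=
    { toFun := fun X => PK h X
      map_add' := fun X Y => PK_add h X Y
      map_smul' := fun c X => PK_smul h c X }
  let g : Matrix (α × Fin b) (α × Fin b) F →ₗ[F] Matrix (α × Fin b) (α × Fin b) F :=
    { toFun := fun X => pie X
      map_add' := fun X Y => pie_add X Y
      map_smul' := fun c X => pie_smul c X }
  have hfg : f = g := by
    apply Matrix.ext_linearMap
    rintro ⟨i, j⟩ ⟨i', j'⟩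
    ext
    simp only [LinearMap.comp_apply]
    have e : (Matrix.single (i, j) (i', j') 1 : Matrix (α × Fin b) (α × Fin b) F) =
        tt (dl F j) (Matrix.single i i' 1) (dl F j') := by
      ext ⟨k, l⟩ ⟨k', l'⟩
      unfold tt
      rw [Matrix.mul_apply, Finset.sum_eq_single i', Matrix.mul_apply, Finset.sum_eq_single i]
      · simp only [io, Matrix.of_apply, Matrix.conjTranspose_apply, Matrix.single, Prod.mk.injEq, dl]
        by_cases h1 : i = k <;> by_cases h2 : i' = k' <;> by_cases h3 : j = l <;> by_cases h4 : j' = l' <;>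
          simp [h1, h2, h3, h4, Pi.single_apply, eq_comm]
      · intro m _ hm
        simp [Matrix.single, Ne.symm hm]
      · intro h; exact absurd (Finset.mem_univ _) h
      · intro m _ hm
        rw [Matrix.mul_apply]
        have : ∑ x, io α (dl F j) (k, l) x * (Matrix.single i i' 1 : Matrix α α F) x m = 0 := by
          apply Finset.sum_eq_zero
          intro x _
          simp [Matrix.single, Ne.symm hm]
        rw [this, zero_mul]
      · intro h; exact absurd (Finset.mem_univ _) h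
    change PK h (Matrix.single (i, j) (i', j') 1) _ _ = pie (Matrix.single (i, j) (i', j') 1) _ _
    rw [e, h1]
  exact congrArg (fun φ => φ X) hfg

end Cfsg.Agent.UTP
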