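import Mathlib
import Cfsg.Agent.UTP.Trace4

set_option autoImplicit false
set_option linter.unusedSectionVars false
set_option linter.unusedVariables false
set_option linter.style.haveILetI false

/-!
All elements of `K` are pure.
-/

namespace Cfsg.Agent.UTP

open scoped Matrix Kronecker
open Cfsg.Agent.Uni Module
open Matrix (GeneralLinearGroup)

variable {F : Type*} [Field F] [Fintype F] [StarRing F] {q b : ℕ}
variable {α : Type*} [Fintype α] [DecidableEq α]
variable {K : Subgroup (GL (α × Fin b) F)}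
variable (hs : ∀ x : F, star x = x ^ q)

/-- Matrices commuting with all `A ⊗ 1`. -/
theorem isPure_of_comm [Nonempty α] {Y : Matrix (α × Fin b) (α × Fin b) F}
    (h : ∀ A : Matrix α α F, (A ⊗ₖ (1 : Matrix (Fin b) (Fin b) F)) * Y = Y * (A ⊗ₖ 1)) :
    IsPure Y := by
  obtain ⟨i₀⟩ := ‹Nonempty α›
  have hL : ∀ (A : Matrix α α F) i j k l, ((A ⊗ₖ (1 : Matrix (Fin b) (Fin b) F)) * Y) (i, j) (k, l) =
      ∑ m, A i m * Y (m, j) (k, l) := by
    intro A i j k l
    rw [Matrix.mul_apply, Fintype.sum_prod_type]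
    refine Finset.sum_congr rfl fun m _ => ?_
    rw [Finset.sum_eq_single j]
    · simp [Matrix.kroneckerMap_apply]
    · intro r _ hr
      simp [Matrix.kroneckerMap_apply, Matrix.one_apply_ne (Ne.symm hr)]
    · intro h; exact absurd (Finset.mem_univ _) h
  have hR : ∀ (A : Matrix α α F) i j k l, (Y * (A ⊗ₖ (1 : Matrix (Fin b) (Fin b) F))) (i, j) (k, l) =
      ∑ m, Y (i, j) (m, l) * A m k := by
    intro A i j k l
    rw [Matrix.mul_apply, Fintype.sum_prod_type]
    refine Finset.sum_congr rfl fun m _ => ?_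
    rw [Finset.sum_eq_single l]
    · simp [Matrix.kroneckerMap_apply]
    · intro r _ hr
      simp [Matrix.kroneckerMap_apply, Matrix.one_apply_ne hr]
    · intro h; exact absurd (Finset.mem_univ _) h
  have key : ∀ (i : α) (j : Fin b) (k : α) (l : Fin b) (a a' : α),
      ∑ m, (Matrix.single a a' (1 : F)) i m * Y (m, j) (k, l) =
      ∑ m, Y (i, j) (m, l) * (Matrix.single a a' (1 : F)) m k := by
    intro i j k l a a'
    rw [← hL, ← hR, h]
  have keyL : ∀ (i : α) (j : Fin b) (k : α) (l : Fin b) (a a' : α), ∑ m, (Matrix.single a a' (1 : F)) i m * Y (m, j) (k, l) =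
      if a = i then Y (a', j) (k, l) else 0 := by
    intro i j k l a a'
    rw [Finset.sum_eq_single a']
    · by_cases hai : a = i <;> simp [Matrix.single, hai]
    · intro m _ hm
      simp [Matrix.single, Ne.symm hm]
    · intro h; exact absurd (Finset.mem_univ _) h
  have keyR : ∀ (i : α) (j : Fin b) (k : α) (l : Fin b) (a a' : α), ∑ m, Y (i, j) (m, l) * (Matrix.single a a' (1 : F)) m k =
      if a' = k then Y (i, j) (a, l) else 0 := by
    intro i j k l a a'
    rw [Finset.sum_eq_single a]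
    · by_cases hai : a' = k <;> simp [Matrix.single, hai]
    · intro m _ hm
      simp [Matrix.single, Ne.symm hm]
    · intro h; exact absurd (Finset.mem_univ _) h
  simp only [keyL, keyR] at key
  refine ⟨1, Matrix.of fun j l => Y (i₀, j) (i₀, l), ?_⟩
  ext ⟨i, j⟩ ⟨k, l⟩
  rw [Matrix.kroneckerMap_apply, Matrix.of_apply]
  by_cases hik : i = k
  · subst hik
    rw [Matrix.one_apply_eq, one_mul]
    have := key i₀ j i l i₀ i
    rw [if_pos rfl, if_pos rfl] at this
    exact this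
  · rw [Matrix.one_apply_ne hik, zero_mul]
    have := key i j i l k i
    rw [if_neg (Ne.symm hik), if_pos rfl] at this
    exact this.symm

include hs

theorem Ctx.conj_one [Nonempty α] (h : Ctx q K) (hsc : Scal q K) (hF : Fintype.card F = q ^ 2)
    (hb : 4 ≤ b) (hcard : Fintype.card α < b) {H : Matrix (α × Fin b) (α × Fin b) F} (hH : InK K H)
    (A : Matrix α α F) : ∃ A' : Matrix α α F,
      H * (A ⊗ₖ (1 : Matrix (Fin b) (Fin b) F)) * Hᴴ = A' ⊗ₖ (1 : Matrix (Fin b) (Fin b) F) := by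
  haveI : NeZero b := ⟨by omega⟩
  have h1 : pie (A ⊗ₖ (Matrix.single 0 0 1 : Matrix (Fin b) (Fin b) F)) =
      A ⊗ₖ (1 : Matrix (Fin b) (Fin b) F) := by
    rw [pie_kron, Matrix.trace_single_eq_same, one_smul]
  refine ⟨trW (H * (A ⊗ₖ (Matrix.single 0 0 1 : Matrix (Fin b) (Fin b) F)) * Hᴴ), ?_⟩
  rw [← h1, ← h.PK_eq hs hsc hF hb hcard, ← PK_conj h hH, h.PK_eq hs hsc hF hb hcard]
  rfl

theorem Ctx.all_pure [Nonempty α] (h : Ctx q K) (hsc : Scal q K) (hF : Fintype.card F = q ^ 2)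
    (hb : 4 ≤ b) (hcard : Fintype.card α < b) {H : Matrix (α × Fin b) (α × Fin b) F}
    (hH : InK K H) : IsPure H := by
  obtain ⟨c, hc0, hc⟩ := exists_skew (F := F) hF
  obtain ⟨w, hw0, hw⟩ : ∃ w : Fin b → F, w ≠ 0 ∧ hermForm b F q w w = 0 := by
    obtain ⟨ν, hν⟩ := exists_norm_neg_one hF (F := F) (q := q)
    have hlm : (⟨0, by omega⟩ : Fin b) ≠ ⟨1, by omega⟩ := by
      intro h; exact absurd (congrArg Fin.val h) (by norm_num)
    refine ⟨dl F ⟨0, by omega⟩ + ν • dl F ⟨1, by omega⟩, ?_, ?_⟩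
    · intro h0
      have := congrFun h0 ⟨0, by omega⟩
      simp [dl] at this
    · rw [hermForm_add_left, hermForm_smul_left, hermForm_add_right hF, hermForm_add_right hF,
        hermForm_smul_right, hermForm_smul_right, form_dl hF, form_dl hF, form_dl hF, form_dl hF,
        if_pos rfl, if_pos rfl, if_neg hlm, if_neg hlm.symm]
      rw [pow_succ'] at hν
      rw [mul_zero, add_zero, mul_one, zero_add, hν, add_neg_cancel]
  refine h.pure_of_conj hs hsc hF (by omega) hcard hH hw0 hw hc0 (isPure_of_comm fun A => ?_)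
  obtain ⟨A', hA'⟩ := h.conj_one hs hsc hF hb hcard (h.conjT_mem hH) A
  rw [Matrix.conjTranspose_conjTranspose] at hA'
  have hu := h.conjT_mul hH
  have hu' := h.mul_conjT hH
  have h1 : (A ⊗ₖ (1 : Matrix (Fin b) (Fin b) F)) * H = H * (A' ⊗ₖ 1) := by
    rw [← hA']
    calc (A ⊗ₖ (1 : Matrix (Fin b) (Fin b) F)) * H = (H * Hᴴ) * (A ⊗ₖ 1) * H := by
          rw [hu', Matrix.one_mul]
      _ = _ := by simp only [Matrix.mul_assoc]
  have h2 : Hᴴ * (A ⊗ₖ (1 : Matrix (Fin b) (Fin b) F)) = (A' ⊗ₖ 1) * Hᴴ := by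
    rw [← hA']
    calc Hᴴ * (A ⊗ₖ (1 : Matrix (Fin b) (Fin b) F)) = Hᴴ * (A ⊗ₖ 1) * (H * Hᴴ) := by
          rw [hu', Matrix.mul_one]
      _ = _ := by simp only [Matrix.mul_assoc]
  have h3 : (A' ⊗ₖ (1 : Matrix (Fin b) (Fin b) F)) * (1 + tt w (c • (1 : Matrix α α F)) w) =
      (1 + tt w (c • (1 : Matrix α α F)) w) * (A' ⊗ₖ 1) := by
    rw [Matrix.mul_add, Matrix.add_mul, Matrix.mul_one, Matrix.one_mul]
    congr 1
    have e1 : (A' ⊗ₖ (1 : Matrix (Fin b) (Fin b) F)) * io α w = io α w * A' := by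
      rw [kr_io, Matrix.one_mulVec]
    have e2 : (io α w)ᴴ * (A' ⊗ₖ (1 : Matrix (Fin b) (Fin b) F)) = A' * (io α w)ᴴ := by
      have := congrArg Matrix.conjTranspose
        (show (A'ᴴ ⊗ₖ (1 : Matrix (Fin b) (Fin b) F)) * io α w = io α w * A'ᴴ by
          rw [kr_io, Matrix.one_mulVec])
      rwa [Matrix.conjTranspose_mul, Matrix.conjTranspose_mul, Matrix.conjTranspose_kronecker,
        Matrix.conjTranspose_conjTranspose, Matrix.conjTranspose_one] at this
    unfold tt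
    rw [← Matrix.mul_assoc, ← Matrix.mul_assoc, e1, Matrix.mul_assoc _ (io α w)ᴴ, e2]
    simp only [Matrix.mul_smul, Matrix.smul_mul, Matrix.mul_one, Matrix.mul_assoc]
  calc (A ⊗ₖ (1 : Matrix (Fin b) (Fin b) F)) * (H * (1 + tt w (c • (1 : Matrix α α F)) w) * Hᴴ) =
      ((A ⊗ₖ (1 : Matrix (Fin b) (Fin b) F)) * H) * (1 + tt w (c • (1 : Matrix α α F)) w) * Hᴴ := by
        simp only [Matrix.mul_assoc]
    _ = H * ((A' ⊗ₖ (1 : Matrix (Fin b) (Fin b) F)) * (1 + tt w (c • (1 : Matrix α α F)) w)) * Hᴴ := by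
        rw [h1]; simp only [Matrix.mul_assoc]
    _ = H * (1 + tt w (c • (1 : Matrix α α F)) w) * ((A' ⊗ₖ (1 : Matrix (Fin b) (Fin b) F)) * Hᴴ) := by
        rw [h3]; simp only [Matrix.mul_assoc]
    _ = H * (1 + tt w (c • (1 : Matrix α α F)) w) * Hᴴ * (A ⊗ₖ 1) := by
        rw [← h2]; simp only [Matrix.mul_assoc]

end Cfsg.Agent.UTP
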