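import Mathlib
import Cfsg.Agent.UTP.Trace5
import Cfsg.Agent.UTP.Full
import Cfsg.Agent.UTP.AlgU2

set_option autoImplicit false
set_option linter.unusedSectionVars false
set_option linter.unusedVariables false
set_option linter.style.haveILetI false

/-!
The dichotomy for overgroups of `SU(U) ⊗ SU(W)`.
-/

namespace Cfsg.Agent.UTP

open scoped Matrix Kronecker
open Cfsg.Agent.Uni Module
open Matrix (GeneralLinearGroup)

variable {F : Type*} [Field F] [Fintype F] [StarRing F] {q a b : ℕ}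
variable {K : Subgroup (GL (Fin a × Fin b) F)}
variable (hs : ∀ x : F, star x = x ^ q)

include hs

/-- The coefficient algebra is invariant. -/
theorem Ctx.sAlg (h : Ctx q K) (hF : Fintype.card F = q ^ 2) (hb : 4 ≤ b)
    (hU : ∀ s : SU a F q, InK K (((s : Matrix.SpecialLinearGroup (Fin a) F) :
      Matrix (Fin a) (Fin a) F) ⊗ₖ (1 : Matrix (Fin b) (Fin b) F))) :
    SAlg q (BB q K) where
  one := h.bb_one hs hF (by omega)
  add := fun x hx y hy => bb_add hs hF hx hy
  mul := fun x hx y hy => h.bb_mul hs hF hb hx hy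
  smul := fun c x hx => bb_smul hs hF c hx
  conjT := fun x hx => bb_conjT hs hF hx
  inv := by
    intro s x hx y z hy hz hyz
    have h1 := h.kn_conj (hU s) (hx y z hy hz hyz)
    convert h1 using 1
    set S : Matrix (Fin a) (Fin a) F := ((s : Matrix.SpecialLinearGroup (Fin a) F) :
      Matrix (Fin a) (Fin a) F) with hS
    have e : ∀ (u v : Fin b → F) (A : Matrix (Fin a) (Fin a) F),
        (S ⊗ₖ (1 : Matrix (Fin b) (Fin b) F)) * tt u A v * (S ⊗ₖ (1 : Matrix (Fin b) (Fin b) F))ᴴ =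
          tt u (S * A * Sᴴ) v := by
      intro u v A
      have e1 : (S ⊗ₖ (1 : Matrix (Fin b) (Fin b) F)) * io (Fin a) u = io (Fin a) u * S := by
        rw [kr_io, Matrix.one_mulVec]
      have e2 : (io (Fin a) v)ᴴ * (S ⊗ₖ (1 : Matrix (Fin b) (Fin b) F))ᴴ = Sᴴ * (io (Fin a) v)ᴴ := by
        rw [← Matrix.conjTranspose_mul, kr_io, Matrix.one_mulVec, Matrix.conjTranspose_mul]
      unfold tt
      rw [← Matrix.mul_assoc, ← Matrix.mul_assoc, e1, Matrix.mul_assoc _ (io (Fin a) v)ᴴ, e2]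
      simp only [Matrix.mul_assoc]
    rw [Matrix.mul_sub, Matrix.sub_mul, e, e]
    congr 2
    rw [Matrix.conjTranspose_mul, Matrix.conjTranspose_mul, Matrix.conjTranspose_conjTranspose,
      Matrix.mul_assoc]

/-- The dichotomy. -/
theorem Ctx.main (h : Ctx q K) (hF : Fintype.card F = q ^ 2) (ha : 2 ≤ a) (hab : a < b)
    (hb : 4 ≤ b) (hex : ¬ (a = 2 ∧ q = 2))
    (hU : ∀ s : SU a F q, InK K (((s : Matrix.SpecialLinearGroup (Fin a) F) :
      Matrix (Fin a) (Fin a) F) ⊗ₖ (1 : Matrix (Fin b) (Fin b) F))) :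
    (∀ v : Fin a × Fin b → F, v ⬝ᵥ star v = 0 → v ∈ XX q K) ∨ ∀ G, InK K G → IsPure G := by
  haveI : Nonempty (Fin a) := ⟨⟨0, by omega⟩⟩
  rcases (h.sAlg hs hF (by omega) hU).dichotomy hs hF ha hex with h1 | h1
  · right
    intro G hG
    exact h.all_pure hs (fun A hA => h1 A (h.bb_of_aa hs hF (by omega) hA)) hF hb
      (by rw [Fintype.card_fin]; exact hab) hG
  · left
    intro v hv
    exact h.xx_all hs hF (by omega) h1 hv

end Cfsg.Agent.UTP
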