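import Mathlib
import Cfsg.Agent.UTP.Main
import Cfsg.Agent.UCase.TensorFour
import Cfsg.Agent.UCase.Proper
import Cfsg.Agent.H98.UniSim
import Cfsg.Agent.Asch.UniTensor

set_option autoImplicit false
set_option linter.unusedSectionVars false
set_option linter.unusedVariables false
set_option linter.style.haveILetI false

/-!
Transport of tensor product stabilisers to standard coordinates.
-/

namespace Cfsg.Agent.UTP

open scoped Matrix Kronecker
open Cfsg.Agent.Uni Cfsg.Geo Module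
open Cfsg.Agent.UCase (powForm_eq)
open Matrix (GeneralLinearGroup)

variable {F : Type*} [Field F] [Fintype F] [StarRing F] {q n : ℕ}
variable (hs : ∀ x : F, star x = x ^ q)

include hs

theorem exists_gram_one (hF : Fintype.card F = q ^ 2) {m : ℕ} {f : (Fin m → F) → (Fin m → F) → F}
    (hf : IsUnitaryFormPow q f) : ∃ S : GL (Fin m) F,
      (S : Matrix (Fin m) (Fin m) F)ᵀ * gramMatrix f * (S : Matrix (Fin m) (Fin m) F).map star = 1 := by
  obtain ⟨σ, hσ, hne, hσ2⟩ := Asch.exists_pow_sigma hF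
  obtain ⟨q', hq', hσ', S, hS⟩ := H98.UniMax.exists_std_form (Asch.IsUnitaryFormPow.isUnitaryForm hf hσ hne hσ2)
  have hqq : q' = q := Nat.pow_left_injective (n := 2) (by norm_num) (hq'.symm.trans hF)
  subst hqq
  refine ⟨S, ?_⟩
  ext i j
  have h1 := hS (Pi.single i 1) (Pi.single j 1)
  rw [powForm_eq hF hf, Cfsg.Agent.Uni.hermForm_single_left] at h1
  have h2 : (1 : Matrix (Fin m) (Fin m) F) i j = (Pi.single j (1 : F) : Fin m → F) i ^ q' := by
    by_cases h : i = j
    · subst h; simp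
    · have := two_le_q hF
      rw [Matrix.one_apply_ne h, Pi.single_eq_of_ne h, zero_pow (by omega)]
  rw [h2, ← h1, Matrix.mul_apply]
  rw [Finset.sum_comm]
  refine Finset.sum_congr rfl fun b _ => ?_
  rw [Matrix.mul_apply, Finset.sum_mul]
  refine Finset.sum_congr rfl fun a _ => ?_
  rw [Matrix.transpose_apply, Matrix.map_apply, hs, Matrix.mulVec_single_one, Matrix.mulVec_single_one]
  rfl

theorem formOfGram_dot {κ : Type} [Fintype κ] (G : Matrix κ κ F) (x y : κ → F) :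
    formOfGram (fun z : F => z ^ q) G x y = x ⬝ᵥ (G *ᵥ star y) := by
  unfold formOfGram
  simp only [dotProduct, Matrix.mulVec, Finset.mul_sum, Pi.star_apply, hs, mul_assoc]

theorem star_mulVec' {κ κ' : Type*} [Fintype κ'] (M : Matrix κ κ' F) (y : κ' → F) :
    star (M *ᵥ y) = M.map star *ᵥ star y := by
  ext i
  simp only [Pi.star_apply, Matrix.mulVec, dotProduct, Matrix.map_apply, star_sum, star_mul']

theorem gram_kron {a b : ℕ} {G₁ S₁ : Matrix (Fin a) (Fin a) F} {G₂ S₂ : Matrix (Fin b) (Fin b) F}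
    {d : F} (h1 : S₁ᵀ * G₁ * S₁.map star = d • 1) (h2 : S₂ᵀ * G₂ * S₂.map star = 1)
    (x y : Fin a × Fin b → F) :
    formOfGram (fun z : F => z ^ q) (G₁ ⊗ₖ G₂) ((S₁ ⊗ₖ S₂) *ᵥ x) ((S₁ ⊗ₖ S₂) *ᵥ y) =
      d * (x ⬝ᵥ star y) := by
  have hmap : (S₁ ⊗ₖ S₂).map star = S₁.map star ⊗ₖ S₂.map star := by
    ext ⟨i, j⟩ ⟨k, l⟩
    simp [Matrix.kroneckerMap_apply]
  rw [formOfGram_dot hs, star_mulVec' hs, Matrix.mulVec_mulVec, ← Matrix.vecMul_transpose,
    ← Matrix.dotProduct_mulVec, Matrix.mulVec_mulVec, hmap, ← Matrix.mul_kronecker_mul]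
  have ht : (S₁ ⊗ₖ S₂)ᵀ = S₁ᵀ ⊗ₖ S₂ᵀ := by
    ext ⟨i, j⟩ ⟨k, l⟩
    simp [Matrix.kroneckerMap_apply]
  rw [ht, ← Matrix.mul_kronecker_mul, ← Matrix.mul_assoc, ← Matrix.mul_assoc, h1, h2,
    Matrix.smul_kronecker, Matrix.one_kronecker_one, Matrix.smul_mulVec, Matrix.one_mulVec,
    dotProduct_smul, smul_eq_mul]

theorem mem_GU_iff {g : GL (Fin n) F} : g ∈ GU n F q ↔
    (g : Matrix (Fin n) (Fin n) F)ᴴ * (g : Matrix (Fin n) (Fin n) F) = 1 := by
  have h1 : ∀ (M : Matrix (Fin n) (Fin n) F) (u v : Fin n → F),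
      hermForm n F q (M *ᵥ u) (M *ᵥ v) = star v ⬝ᵥ ((Mᴴ * M) *ᵥ u) := by
    intro M u v
    rw [← dot_star hs, dotProduct_comm, Matrix.star_mulVec, ← Matrix.dotProduct_mulVec,
      Matrix.mulVec_mulVec]
  constructor
  · intro h
    have h2 : ∀ u v : Fin n → F, star v ⬝ᵥ (((g : Matrix (Fin n) (Fin n) F)ᴴ *
        (g : Matrix (Fin n) (Fin n) F)) *ᵥ u) = star v ⬝ᵥ u := by
      intro u v
      rw [← h1, show hermForm n F q ((g : Matrix (Fin n) (Fin n) F) *ᵥ u)
        ((g : Matrix (Fin n) (Fin n) F) *ᵥ v) = hermForm n F q u v from h u v, ← dot_star hs,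
        dotProduct_comm]
    apply Matrix.ext_of_mulVec_single
    intro j
    rw [Matrix.one_mulVec]
    ext i
    have h3 := h2 (Pi.single j 1) (star (Pi.single i 1))
    rw [star_star, single_one_dotProduct, single_one_dotProduct] at h3
    exact h3
  · intro h u v
    change hermForm n F q ((g : Matrix (Fin n) (Fin n) F) *ᵥ u)
      ((g : Matrix (Fin n) (Fin n) F) *ᵥ v) = hermForm n F q u v
    rw [h1, h, Matrix.one_mulVec, ← dot_star hs, dotProduct_comm]

omit hs in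
theorem glReindex_coe' {κ κ' : Type} [Fintype κ] [DecidableEq κ] [Fintype κ'] [DecidableEq κ']
    (e : κ ≃ κ') (g : GL κ F) :
    ((glReindex e g : GL κ' F) : Matrix κ' κ' F) = Matrix.reindex e e (g : Matrix κ κ F) := rfl

omit hs in
theorem reindex_mulVec' {κ κ' : Type} [Fintype κ] [DecidableEq κ] [Fintype κ'] [DecidableEq κ']
    (e : κ ≃ κ') (M : Matrix κ κ F) (x : κ' → F) :
    Matrix.reindex e e M *ᵥ x = (M *ᵥ (x ∘ e)) ∘ e.symm := by
  ext i
  simp only [Matrix.mulVec, dotProduct, Matrix.reindex_apply, Matrix.submatrix_apply,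
    Function.comp_apply]
  exact Fintype.sum_equiv e.symm _ _ fun j => by rw [Equiv.apply_symm_apply]

omit hs in
theorem mem_tensor_iff {a b : ℕ} (e : Fin n ≃ Fin a × Fin b) (P x : GL (Fin n) F) :
    x ∈ tensorProductSubgroup a b e P ↔ glReindex e (P⁻¹ * x * P) ∈ kroneckerSubgroup a b F := by
  unfold tensorProductSubgroup
  constructor
  · rintro ⟨y, ⟨z, hz, rfl⟩, rfl⟩
    have : P⁻¹ * ((MulAut.conj P).toMonoidHom ((glReindex e.symm).toMonoidHom z)) * P =
        glReindex e.symm z := by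
      change P⁻¹ * (P * glReindex e.symm z * P⁻¹) * P = _
      group
    rw [this]
    have h2 : glReindex e (glReindex e.symm z) = z := by
      apply Units.ext
      rw [glReindex_coe', glReindex_coe']
      ext i j
      simp
    rw [h2]; exact hz
  · intro h
    refine ⟨P⁻¹ * x * P, ⟨_, h, ?_⟩, ?_⟩
    · apply Units.ext
      change Matrix.reindex e.symm e.symm (Matrix.reindex e e
        ((P⁻¹ * x * P : GL (Fin n) F) : Matrix (Fin n) (Fin n) F)) = _
      ext i j
      simp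
    · change P * (P⁻¹ * x * P) * P⁻¹ = x
      group

/-- Changing the frame to a unitary one. -/
theorem exists_unitary_frame (hF : Fintype.card F = q ^ 2) {a b : ℕ} (ha : 0 < a) (hb : 0 < b)
    (e : Fin n ≃ Fin a × Fin b) (P : GL (Fin n) F) {f₁ : (Fin a → F) → (Fin a → F) → F}
    {f₂ : (Fin b → F) → (Fin b → F) → F} (hf₁ : IsUnitaryFormPow q f₁) (hf₂ : IsUnitaryFormPow q f₂)
    (hT : IsTensorFormStructure (fun x : F => x ^ q) (hermForm n F q) f₁ f₂ e P) :
    ∃ P' : GL (Fin n) F, P' ∈ GU n F q ∧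
      tensorProductSubgroup a b e P = tensorProductSubgroup a b e P' := by
  obtain ⟨c, hc0, hc⟩ := hT
  obtain ⟨S₁, hS₁⟩ := exists_gram_one hs hF hf₁
  obtain ⟨S₂, hS₂⟩ := exists_gram_one hs hF hf₂
  have hgen : ∀ (T₁ : Matrix (Fin a) (Fin a) F) (T₂ : Matrix (Fin b) (Fin b) F) (x : Fin a × Fin b → F),
      ((T₁ ⊗ₖ T₂) *ᵥ x) ∘ e = Matrix.reindex e.symm e.symm (T₁ ⊗ₖ T₂) *ᵥ (x ∘ e) := by
    intro T₁ T₂ x
    rw [reindex_mulVec']
    congr 2
    ext i; simp
  -- `c` is fixed by the involution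
  have hcq : c ^ q = c := by
    have h1 : ∀ x : Fin a × Fin b → F, hermForm n F q
        ((P : Matrix (Fin n) (Fin n) F) *ᵥ ((((S₁ : Matrix (Fin a) (Fin a) F) ⊗ₖ
          (S₂ : Matrix (Fin b) (Fin b) F)) *ᵥ x) ∘ e))
        ((P : Matrix (Fin n) (Fin n) F) *ᵥ ((((S₁ : Matrix (Fin a) (Fin a) F) ⊗ₖ
          (S₂ : Matrix (Fin b) (Fin b) F)) *ᵥ x) ∘ e)) = c * (1 * (x ⬝ᵥ star x)) := by
      intro x
      rw [hc, gram_kron hs (by rw [hS₁, one_smul]) hS₂]
    have h2 := h1 (Pi.single (⟨0, ha⟩, ⟨0, hb⟩) 1)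
    have h3 : (Pi.single (⟨0, ha⟩, ⟨0, hb⟩) 1 : Fin a × Fin b → F) ⬝ᵥ
        star (Pi.single (⟨0, ha⟩, ⟨0, hb⟩) 1 : Fin a × Fin b → F) = 1 := by
      rw [single_one_dotProduct, Pi.star_apply, Pi.single_eq_same, star_one]
    rw [h3, mul_one, mul_one] at h2
    rw [← h2, hermForm_self_pow_q hF]
  obtain ⟨μ, hμ⟩ := exists_norm_eq (F := F) (q := q) hF (c := c⁻¹) (by rw [inv_pow, hcq])
  have hμ0 : μ ≠ 0 := by
    intro h0
    rw [h0, zero_pow (by omega)] at hμ
    exact inv_ne_zero hc0 hμ.symm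
  -- the scaled matrix
  let U : GL (Fin a) F := (Units.map (Matrix.scalar (Fin a) : F →+* Matrix (Fin a) (Fin a) F).toMonoidHom
    (Units.mk0 μ hμ0)) * S₁
  have hU : (U : Matrix (Fin a) (Fin a) F) = μ • (S₁ : Matrix (Fin a) (Fin a) F) := by
    change (Matrix.scalar (Fin a) μ) * (S₁ : Matrix (Fin a) (Fin a) F) = _
    rw [Matrix.scalar_apply, ← Matrix.smul_one_eq_diagonal, Matrix.smul_mul, Matrix.one_mul]
  have hUg : (U : Matrix (Fin a) (Fin a) F)ᵀ * gramMatrix f₁ * (U : Matrix (Fin a) (Fin a) F).map star =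
      c⁻¹ • 1 := by
    have h1 : (μ • (S₁ : Matrix (Fin a) (Fin a) F)).map star =
        μ ^ q • (S₁ : Matrix (Fin a) (Fin a) F).map star := by
      ext i j
      simp [hs, mul_pow]
    rw [hU, h1, Matrix.transpose_smul, Matrix.smul_mul, Matrix.smul_mul, Matrix.mul_smul, hS₁,
      smul_smul, ← hμ, pow_succ']
  -- the Kronecker product as an invertible matrix
  have hdet : IsUnit ((U : Matrix (Fin a) (Fin a) F) ⊗ₖ (S₂ : Matrix (Fin b) (Fin b) F)).det := by
    rw [Matrix.det_kronecker]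
    exact ((Matrix.isUnits_det_units U).pow _).mul ((Matrix.isUnits_det_units S₂).pow _)
  let k : GL (Fin a × Fin b) F := Matrix.GeneralLinearGroup.mk'' _ hdet
  have hk : (k : Matrix (Fin a × Fin b) (Fin a × Fin b) F) =
      (U : Matrix (Fin a) (Fin a) F) ⊗ₖ (S₂ : Matrix (Fin b) (Fin b) F) := rfl
  have hkK : k ∈ kroneckerSubgroup a b F := ⟨U, S₂, hk⟩
  refine ⟨P * glReindex e.symm k, ?_, ?_⟩
  · intro u v
    change hermForm n F q (((P * glReindex e.symm k : GL (Fin n) F) : Matrix (Fin n) (Fin n) F) *ᵥ u)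
      (((P * glReindex e.symm k : GL (Fin n) F) : Matrix (Fin n) (Fin n) F) *ᵥ v) = hermForm n F q u v
    have h1 : ∀ u : Fin n → F, ((P * glReindex e.symm k : GL (Fin n) F) : Matrix (Fin n) (Fin n) F) *ᵥ u =
        (P : Matrix (Fin n) (Fin n) F) *ᵥ (((((U : Matrix (Fin a) (Fin a) F) ⊗ₖ
          (S₂ : Matrix (Fin b) (Fin b) F)) *ᵥ (u ∘ e.symm))) ∘ e) := by
      intro u
      rw [Units.val_mul, ← Matrix.mulVec_mulVec, glReindex_coe', hk, hgen]
      congr 2
      ext i; simp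
    rw [h1, h1, hc, gram_kron hs hUg hS₂, ← mul_assoc, mul_inv_cancel₀ hc0, one_mul, ← dot_star hs]
    simp only [dotProduct, Pi.star_apply, Function.comp_apply]
    exact Fintype.sum_equiv e.symm _ _ fun j => rfl
  · ext x
    rw [mem_tensor_iff, mem_tensor_iff]
    have h1 : glReindex e ((P * glReindex e.symm k)⁻¹ * x * (P * glReindex e.symm k)) =
        k⁻¹ * glReindex e (P⁻¹ * x * P) * k := by
      have h2 : (P * glReindex e.symm k)⁻¹ * x * (P * glReindex e.symm k) =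
          (glReindex e.symm k)⁻¹ * (P⁻¹ * x * P) * glReindex e.symm k := by group
      have h3 : glReindex e (glReindex e.symm k) = k := by
        apply Units.ext
        rw [glReindex_coe', glReindex_coe']
        ext i j
        simp
      rw [h2, map_mul, map_mul, map_inv, h3]
    rw [h1]
    constructor
    · intro h
      exact (kroneckerSubgroup a b F).mul_mem
        ((kroneckerSubgroup a b F).mul_mem ((kroneckerSubgroup a b F).inv_mem hkK) h) hkK
    · intro h
      have h4 := (kroneckerSubgroup a b F).mul_mem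
        ((kroneckerSubgroup a b F).mul_mem hkK h) ((kroneckerSubgroup a b F).inv_mem hkK)
      have h5 : k * (k⁻¹ * glReindex e (P⁻¹ * x * P) * k) * k⁻¹ = glReindex e (P⁻¹ * x * P) := by group
      rwa [h5] at h4

end Cfsg.Agent.UTP
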