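import Mathlib
import Cfsg.Agent.UTP.Transp

set_option autoImplicit false
set_option linter.unusedSectionVars false
set_option linter.unusedVariables false
set_option linter.style.haveILetI false

/-!
Maximality of tensor product stabilisers in the special unitary groups.
-/

namespace Cfsg.Agent.UTP

open scoped Matrix Kronecker
open Cfsg.Agent.Uni Cfsg.Geo Module
open Cfsg.Agent.UCase (SG suHom suHom_coe suHom_mem suHom_range not_le_tensorProductSubgroup)
open Matrix (GeneralLinearGroup)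

/-- A subgroup of `SG` containing all transvections. -/
theorem sg_le_of_transv {F : Type*} [Field F] [Fintype F] {q n : ℕ} (hF : Fintype.card F = q ^ 2)
    (hn : 4 ≤ n) {M : Subgroup (GL (Fin n) F)}
    (h : ∀ (g : SU n F q) (v : Fin n → F) (c : F), v ≠ 0 → hermForm n F q v v = 0 → c ^ q = -c →
      (∀ x, act g x = x + (c * hermForm n F q x v) • v) → suHom n F q g ∈ M) : SG n F q ≤ M := by
  have key : TT n F q ≤ M.comap (suHom n F q) := by
    unfold TT
    rw [Subgroup.closure_le]
    rintro A ⟨v, c, hv, hA⟩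
    change suHom n F q A ∈ M
    have hAx : ∀ x, act A x = x + (c * hermForm n F q x v) • v := by
      intro x
      rw [act_def, hA, unitaryTransvection_mulVec]
    by_cases hv0 : v = 0
    · have : A = 1 := by
        apply act_ext
        intro x
        rw [hAx, hv0, smul_zero, add_zero, act_one]
      rw [this, map_one]; exact M.one_mem
    obtain ⟨z, hz⟩ := exists_form_ne (q := q) hF hv0
    have hz' : hermForm n F q z v ≠ 0 := by
      intro h0
      exact hz ((hermForm_eq_zero_comm hF).1 h0)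
    have h1 := act_form A z z
    rw [hAx, hermForm_add_left, hermForm_add_right hF, hermForm_add_right hF, hermForm_smul_left,
      hermForm_smul_left, hermForm_smul_right, hermForm_smul_right, hv, mul_pow] at h1
    have h2 : hermForm n F q v z = (hermForm n F q z v) ^ q := (hermForm_symm hF _ _).symm
    rw [h2] at h1
    have h3 : (c ^ q + c) * ((hermForm n F q z v) * (hermForm n F q z v) ^ q) = 0 := by
      linear_combination h1
    have h4 : c ^ q + c = 0 := by
      rcases mul_eq_zero.1 h3 with h | h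
      · exact h
      · exact absurd h (mul_ne_zero hz' (pow_ne_zero _ hz'))
    exact h A v c hv0 hv (by linear_combination h4) hAx
  rw [TT_eq_top hF (by omega) (by omega)] at key
  rw [← suHom_range]
  rintro _ ⟨g, rfl⟩
  exact key (Subgroup.mem_top g)

variable {F : Type*} [Field F] [Fintype F] {q n : ℕ}

theorem tensor_maximal4 (hF : Fintype.card F = q ^ 2) {a b : ℕ} (ha : 2 ≤ a) (hab : a < b)
    (hb : 4 ≤ b) (hex : ¬ (a = 2 ∧ q = 2)) (e : Fin n ≃ Fin a × Fin b) (P : GL (Fin n) F)
    {f₁ : (Fin a → F) → (Fin a → F) → F} {f₂ : (Fin b → F) → (Fin b → F) → F}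
    (hf₁ : IsUnitaryFormPow q f₁) (hf₂ : IsUnitaryFormPow q f₂)
    (hT : IsTensorFormStructure (fun x : F => x ^ q) (hermForm n F q) f₁ f₂ e P) :
    IsMaximalIn (SG n F q) (tensorProductSubgroup a b e P ⊓ SG n F q) := by
  classical
  letI : StarRing F := starF hF
  have hs : ∀ x : F, star x = x ^ q := fun x => rfl
  have hcard : n = a * b := by
    have := Fintype.card_congr e
    rwa [Fintype.card_fin, Fintype.card_prod, Fintype.card_fin, Fintype.card_fin] at this
  have hn : 8 ≤ n := by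
    rw [hcard]
    calc 8 = 2 * 4 := by norm_num
      _ ≤ a * b := Nat.mul_le_mul ha hb
  obtain ⟨P', hP', hTP⟩ := exists_unitary_frame hs hF (by omega) (by omega) e P hf₁ hf₂ hT
  rw [hTP]
  -- the coordinate isomorphism
  let ψ : GL (Fin n) F ≃* GL (Fin a × Fin b) F := (MulAut.conj P'⁻¹).trans (glReindex e)
  have hψ : ∀ x : GL (Fin n) F, ψ x = glReindex e (P'⁻¹ * x * P') := by
    intro x
    change glReindex e (P'⁻¹ * x * P'⁻¹⁻¹) = _
    rw [inv_inv]
  have hψT : ∀ x : GL (Fin n) F, x ∈ tensorProductSubgroup a b e P' ↔ ψ x ∈ kroneckerSubgroup a b F := by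
    intro x; rw [mem_tensor_iff, hψ]
  have hψm : ∀ x : GL (Fin n) F, ((ψ x : GL (Fin a × Fin b) F) : Matrix (Fin a × Fin b) (Fin a × Fin b) F) =
      Matrix.reindex e e ((P'⁻¹ * x * P' : GL (Fin n) F) : Matrix (Fin n) (Fin n) F) := by
    intro x; rw [hψ]; rfl
  have hreU : ∀ M : Matrix (Fin n) (Fin n) F, (Matrix.reindex e e M)ᴴ * Matrix.reindex e e M =
      Matrix.reindex e e (Mᴴ * M) := by
    intro M
    rw [Matrix.conjTranspose_reindex]
    exact (map_mul (Matrix.reindexAlgEquiv F F e) _ _).symm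
  have hre1 : Matrix.reindex e e (1 : Matrix (Fin n) (Fin n) F) = 1 := by
    rw [Matrix.reindex_apply, Matrix.submatrix_one_equiv]
  have hψU : ∀ x : GL (Fin n) F, x ∈ GU n F q ↔
      ((ψ x : GL (Fin a × Fin b) F) : Matrix (Fin a × Fin b) (Fin a × Fin b) F)ᴴ *
        ((ψ x : GL (Fin a × Fin b) F) : Matrix (Fin a × Fin b) (Fin a × Fin b) F) = 1 := by
    intro x
    have h1 : x ∈ GU n F q ↔ P'⁻¹ * x * P' ∈ GU n F q := by
      constructor
      · intro h
        exact (GU n F q).mul_mem ((GU n F q).mul_mem ((GU n F q).inv_mem hP') h) hP'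
      · intro h
        have h2 := (GU n F q).mul_mem ((GU n F q).mul_mem hP' h) ((GU n F q).inv_mem hP')
        have h3 : P' * (P'⁻¹ * x * P') * P'⁻¹ = x := by group
        rwa [h3] at h2
    rw [h1, mem_GU_iff hs, hψm, hreU]
    constructor
    · intro h; rw [h, hre1]
    · intro h
      rw [← hre1] at h
      exact (Matrix.reindex e e).injective h
  have hψD : ∀ x : GL (Fin n) F, x ∈ specialLinear (Fin n) F ↔
      ((ψ x : GL (Fin a × Fin b) F) : Matrix (Fin a × Fin b) (Fin a × Fin b) F).det = 1 := by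
    intro x
    rw [AschCases.mem_specialLinear, hψm, Matrix.det_reindex_self, Units.val_mul, Units.val_mul,
      Matrix.det_mul, Matrix.det_mul]
    have h1 : ((P'⁻¹ : GL (Fin n) F) : Matrix (Fin n) (Fin n) F).det *
        (P' : Matrix (Fin n) (Fin n) F).det = 1 := by
      rw [← Matrix.det_mul, ← Units.val_mul, inv_mul_cancel, Units.val_one, Matrix.det_one]
    have h2 : ((P'⁻¹ : GL (Fin n) F) : Matrix (Fin n) (Fin n) F).det *
        (x : Matrix (Fin n) (Fin n) F).det * (P' : Matrix (Fin n) (Fin n) F).det =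
        (x : Matrix (Fin n) (Fin n) F).det := by
      rw [mul_right_comm, h1, one_mul]
    rw [h2]
  refine ⟨lt_of_le_of_ne inf_le_right ?_, ?_⟩
  · intro h
    apply not_le_tensorProductSubgroup (F := F) hF (by omega) ha (by omega) e P'
    rw [← h]
    exact inf_le_left
  intro K₀ hK1 hK2
  set K : Subgroup (GL (Fin a × Fin b) F) := K₀.map ψ.toMonoidHom with hK
  have hmemK : ∀ x : GL (Fin n) F, ψ x ∈ K ↔ x ∈ K₀ := by
    intro x
    rw [hK]
    constructor
    · rintro ⟨y, hy, hyx⟩
      have : y = x := ψ.injective hyx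
      rwa [← this]
    · intro h; exact ⟨x, h, rfl⟩
  -- pure elements of `K`
  have hpureK : ∀ (A : Matrix (Fin a) (Fin a) F) (B : Matrix (Fin b) (Fin b) F), Aᴴ * A = 1 → Bᴴ * B = 1 →
      A.det = 1 → B.det = 1 → InK K (A ⊗ₖ B) := by
    intro A B hA hB hAd hBd
    have hdet : (A ⊗ₖ B).det = 1 := by
      rw [Matrix.det_kronecker, hAd, hBd, one_pow, one_pow, one_mul]
    let g : GL (Fin a × Fin b) F := Matrix.GeneralLinearGroup.mk'' (A ⊗ₖ B) (by rw [hdet]; exact isUnit_one)
    have hg : (g : Matrix (Fin a × Fin b) (Fin a × Fin b) F) = A ⊗ₖ B := rfl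
    obtain ⟨x, hx⟩ := ψ.surjective g
    refine ⟨g, ?_, hg⟩
    rw [← hx, hmemK]
    apply hK1
    refine Subgroup.mem_inf.2 ⟨?_, Subgroup.mem_inf.2 ⟨?_, ?_⟩⟩
    · rw [hψT, hx]
      exact ⟨Matrix.GeneralLinearGroup.mk'' A (by rw [hAd]; exact isUnit_one),
        Matrix.GeneralLinearGroup.mk'' B (by rw [hBd]; exact isUnit_one), rfl⟩
    · rw [hψU, hx, hg, Matrix.conjTranspose_kronecker, ← Matrix.mul_kronecker_mul, hA, hB,
        Matrix.one_kronecker_one]
    · rw [hψD, hx, hg, hdet]
  have hsu : ∀ {m : ℕ} (s : SU m F q), ((s : Matrix.SpecialLinearGroup (Fin m) F) :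
      Matrix (Fin m) (Fin m) F)ᴴ * ((s : Matrix.SpecialLinearGroup (Fin m) F) :
      Matrix (Fin m) (Fin m) F) = 1 := by
    intro m s
    have := (mem_GU_iff hs).1 (suHom_mem s).1
    rwa [suHom_coe] at this
  have hctx : Ctx q K := by
    refine ⟨?_, ?_⟩
    · rintro g ⟨x, hx, rfl⟩
      exact (hψU x).1 (hK2 hx).1
    · intro s
      refine ⟨1 ⊗ₖ ((s : Matrix.SpecialLinearGroup (Fin b) F) : Matrix (Fin b) (Fin b) F), ?_, ?_⟩
      · exact hpureK _ _ (by rw [Matrix.conjTranspose_one, Matrix.one_mul]) (hsu s) Matrix.det_one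
          (Matrix.SpecialLinearGroup.det_coe _)
      · intro w
        rw [kr_io, Matrix.mul_one]
        rfl
  rcases hctx.main hs hF ha hab hb hex (fun s => hpureK _ _ (hsu s)
    (by rw [Matrix.conjTranspose_one, Matrix.one_mul]) (Matrix.SpecialLinearGroup.det_coe _)
    Matrix.det_one) with hall | hall
  · right
    refine le_antisymm hK2 (sg_le_of_transv hF (by omega) ?_)
    intro g v c hv0 hv hc hg
    -- the image of `g`
    set v' : Fin a × Fin b → F := (((P'⁻¹ : GL (Fin n) F) : Matrix (Fin n) (Fin n) F) *ᵥ v) ∘ e.symm with hv'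
    have hP'i := (GU n F q).inv_mem hP'
    have hform : ∀ x y : Fin n → F, (x ∘ e.symm) ⬝ᵥ star (y ∘ e.symm) = hermForm n F q x y := by
      intro x y
      rw [← dot_star hs]
      simp only [dotProduct, Pi.star_apply, Function.comp_apply]
      exact Fintype.sum_equiv e.symm _ _ fun j => rfl
    have hv'0 : v' ⬝ᵥ star v' = 0 := by
      rw [hv', hform]
      exact (hP'i v v).trans hv
    have h1 := hall v' hv'0 c hc
    have h2 : ((ψ (suHom n F q g) : GL (Fin a × Fin b) F) : Matrix (Fin a × Fin b) (Fin a × Fin b) F) =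
        1 + c • rk v' := by
      apply Matrix.ext_of_mulVec_single
      intro p
      set y : Fin a × Fin b → F := Pi.single p 1 with hy
      obtain ⟨z, hz⟩ : ∃ z : Fin n → F, y = z ∘ e.symm := ⟨y ∘ e, by ext i; simp⟩
      rw [hψm, reindex_mulVec', Units.val_mul, Units.val_mul, ← Matrix.mulVec_mulVec,
        ← Matrix.mulVec_mulVec]
      have h3 : y ∘ e = z := by rw [hz]; ext i; simp
      have h4 : ((suHom n F q g : GL (Fin n) F) : Matrix (Fin n) (Fin n) F) *ᵥ
          ((P' : Matrix (Fin n) (Fin n) F) *ᵥ z) = (P' : Matrix (Fin n) (Fin n) F) *ᵥ z +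
            (c * hermForm n F q ((P' : Matrix (Fin n) (Fin n) F) *ᵥ z) v) • v := hg _
      have h5 : hermForm n F q ((P' : Matrix (Fin n) (Fin n) F) *ᵥ z) v =
          hermForm n F q z (((P'⁻¹ : GL (Fin n) F) : Matrix (Fin n) (Fin n) F) *ᵥ v) := by
        have h6 : hermForm n F q ((P' : Matrix (Fin n) (Fin n) F) *ᵥ z)
            ((P' : Matrix (Fin n) (Fin n) F) *ᵥ (((P'⁻¹ : GL (Fin n) F) : Matrix (Fin n) (Fin n) F) *ᵥ v)) =
            hermForm n F q z (((P'⁻¹ : GL (Fin n) F) : Matrix (Fin n) (Fin n) F) *ᵥ v) :=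
          hP' z (((P'⁻¹ : GL (Fin n) F) : Matrix (Fin n) (Fin n) F) *ᵥ v)
        rw [Matrix.mulVec_mulVec, ← Units.val_mul, mul_inv_cancel, Units.val_one, Matrix.one_mulVec] at h6
        exact h6
      have h7 : (1 + c • rk v') *ᵥ y = y + (c * (y ⬝ᵥ star v')) • v' := by
        rw [Matrix.add_mulVec, Matrix.one_mulVec, Matrix.smul_mulVec]
        congr 1
        unfold rk
        rw [Matrix.vecMulVec_mulVec, mul_smul]
        congr 1
        ext i
        simp [dotProduct_comm, mul_comm]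
      rw [h3, h4, h7, Matrix.mulVec_add, Matrix.mulVec_smul, Matrix.mulVec_mulVec, ← Units.val_mul,
        inv_mul_cancel, Units.val_one, Matrix.one_mulVec, h5, hz, hv', hform]
      rfl
    obtain ⟨k, hk, hke⟩ := h1
    have h3 : ψ (suHom n F q g) = k := Units.ext (by rw [h2, hke])
    rw [← hmemK, h3]
    exact hk
  · left
    refine le_antisymm (fun x hx => Subgroup.mem_inf.2 ⟨?_, hK2 hx⟩) hK1
    rw [hψT]
    obtain ⟨S, B, hSB⟩ := hall _ ⟨ψ x, (hmemK x).2 hx, rfl⟩
    have hdet : S.det ^ b * B.det ^ a ≠ 0 := by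
      have h1 : (S ⊗ₖ B).det ≠ 0 := by
        rw [← hSB]; exact (Matrix.isUnits_det_units (ψ x)).ne_zero
      rw [Matrix.det_kronecker, Fintype.card_fin, Fintype.card_fin] at h1
      exact h1
    have hS : S.det ≠ 0 := by
      intro h; apply hdet; rw [h, zero_pow (by omega), zero_mul]
    have hB : B.det ≠ 0 := by
      intro h; apply hdet; rw [h, zero_pow (by omega), mul_zero]
    exact ⟨Matrix.GeneralLinearGroup.mk'' S (isUnit_iff_ne_zero.2 hS),
      Matrix.GeneralLinearGroup.mk'' B (isUnit_iff_ne_zero.2 hB), hSB⟩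

theorem tensor_maximal (hF : Fintype.card F = q ^ 2) {a b : ℕ} (ha : 2 ≤ a) (hab : a < b)
    (hb : 5 ≤ b) (hex : ¬ (a = 2 ∧ q = 2)) (e : Fin n ≃ Fin a × Fin b) (P : GL (Fin n) F)
    {f₁ : (Fin a → F) → (Fin a → F) → F} {f₂ : (Fin b → F) → (Fin b → F) → F}
    (hf₁ : IsUnitaryFormPow q f₁) (hf₂ : IsUnitaryFormPow q f₂)
    (hT : IsTensorFormStructure (fun x : F => x ^ q) (hermForm n F q) f₁ f₂ e P) :
    IsMaximalIn (SG n F q) (tensorProductSubgroup a b e P ⊓ SG n F q) :=
  tensor_maximal4 hF ha hab (by omega) hex e P hf₁ hf₂ hT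

end Cfsg.Agent.UTP
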